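import Mathlib

set_option autoImplicit false

namespace Cfsg.Agent.Lib.Helper46

open Polynomial Matrix

variable {R : Type*} [CommRing R]

/-- coefficients of `P / (1 - cX)` -/
theorem coeff_of_eq_mul_one_sub (P P' : R[X]) (c : R) (h : P = P' * (1 - C c * X)) (a : ℕ) :
    P'.coeff a = ∑ b ∈ Finset.range (a + 1), P.coeff (a - b) * c ^ b := by
  induction a with
  | zero =>
    simp only [zero_add, Finset.range_one, Finset.sum_singleton, pow_zero, mul_one, Nat.sub_zero]
    rw [h, Polynomial.mul_coeff_zero]
    simp
  | succ a ih =>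
    have h1 : P.coeff (a + 1) = P'.coeff (a + 1) - c * P'.coeff a := by
      have : P = P' - C c * (P' * X) := by rw [h]; ring
      rw [this, Polynomial.coeff_sub, Polynomial.coeff_C_mul, Polynomial.coeff_mul_X]
    rw [Finset.sum_range_succ']
    simp only [Nat.add_sub_add_right, pow_zero, mul_one, Nat.sub_zero]
    rw [h1, ih, Finset.mul_sum]
    have : ∑ k ∈ Finset.range (a + 1), P.coeff (a - k) * c ^ (k + 1) =
        ∑ i ∈ Finset.range (a + 1), c * (P.coeff (a - i) * c ^ i) :=
      Finset.sum_congr rfl fun k _ => by ring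
    rw [this]
    ring

variable {n : ℕ}

/-- Cauchy's determinant, in polynomial form -/
theorem cauchy_det (x y : Fin n → R) :
    (Matrix.of fun i j => ∏ k ∈ Finset.univ.erase j, (1 - x i * y k)).det =
      (Matrix.vandermonde x).det * (Matrix.vandermonde y).det := by
  classical
  set Q : R[X] := ∏ k, (1 - C (y k) * X) with hQ
  set Qj : Fin n → R[X] := fun j => ∏ k ∈ Finset.univ.erase j, (1 - C (y k) * X) with hQj
  set T : Matrix (Fin n) (Fin n) R := Matrix.of fun a b => if b ≤ a then Q.coeff (a.val - b.val) else 0
    with hT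
  have hfac : ∀ j, Q = Qj j * (1 - C (y j) * X) := by
    intro j
    rw [hQ, hQj, Finset.prod_erase_mul _ _ (Finset.mem_univ j)]
  have hdeg : ∀ j, (Qj j).natDegree < n := by
    intro j
    have h1 : (Qj j).natDegree ≤ ∑ k ∈ Finset.univ.erase j, 1 := by
      refine (Polynomial.natDegree_prod_le _ _).trans (Finset.sum_le_sum fun k _ => ?_)
      compute_degree
    simp only [Finset.sum_const, smul_eq_mul, mul_one, Finset.card_erase_of_mem (Finset.mem_univ j),
      Finset.card_univ, Fintype.card_fin] at h1
    have := j.2
    omega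
  have hrow : ∀ (a j : Fin n), ∑ b, T a b * y j ^ b.val = (Qj j).coeff a.val := by
    intro a j
    rw [coeff_of_eq_mul_one_sub Q (Qj j) (y j) (hfac j)]
    have e1 : ∑ b : Fin n, T a b * y j ^ b.val =
        ∑ b ∈ Finset.range n, (if b ≤ a.val then Q.coeff (a.val - b) else 0) * y j ^ b := by
      rw [← Fin.sum_univ_eq_sum_range
        (fun b => (if b ≤ a.val then Q.coeff (a.val - b) else 0) * y j ^ b) n]
      refine Finset.sum_congr rfl fun b _ => ?_
      simp only [hT, Matrix.of_apply, Fin.le_def]
    rw [e1]
    symm
    have hsub : Finset.range (a.val + 1) ⊆ Finset.range n := by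
      intro b hb
      simp only [Finset.mem_range] at hb ⊢
      omega
    rw [← Finset.sum_subset hsub]
    · refine Finset.sum_congr rfl fun b hb => ?_
      rw [if_pos (by simp only [Finset.mem_range] at hb; omega)]
    · intro b _ hb
      rw [if_neg (by simp only [Finset.mem_range] at hb; omega), zero_mul]
  have hM : (Matrix.of fun i j => ∏ k ∈ Finset.univ.erase j, (1 - x i * y k)) =
      Matrix.vandermonde x * T * (Matrix.vandermonde y)ᵀ := by
    ext i j
    rw [Matrix.mul_assoc, Matrix.mul_apply]
    simp only [Matrix.of_apply, Matrix.vandermonde_apply, Matrix.mul_apply, Matrix.transpose_apply]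
    have e1 : ∏ k ∈ Finset.univ.erase j, (1 - x i * y k) = (Qj j).eval (x i) := by
      rw [hQj, Polynomial.eval_prod]
      refine Finset.prod_congr rfl fun k _ => ?_
      simp
      ring
    rw [e1, Polynomial.eval_eq_sum_range' (hdeg j), ← Fin.sum_univ_eq_sum_range
      (fun a => (Qj j).coeff a * x i ^ a) n]
    refine Finset.sum_congr rfl fun a _ => ?_
    rw [hrow a j]
    ring
  have hTd : T.det = 1 := by
    rw [Matrix.det_of_isLowerTriangular]
    · apply Finset.prod_eq_one
      intro a _
      simp only [hT, Matrix.of_apply, le_refl, if_true, Nat.sub_self]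
      rw [hQ, Polynomial.coeff_zero_eq_eval_zero, Polynomial.eval_prod]
      apply Finset.prod_eq_one
      intro k _
      simp
    · intro a b hab
      simp only [hT, Matrix.of_apply]
      rw [if_neg]
      rw [not_le]
      exact hab
  rw [hM, Matrix.det_mul, Matrix.det_mul, hTd, Matrix.det_transpose, mul_one]

end Cfsg.Agent.Lib.Helper46
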