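import Mathlib
import Cfsg.Prelude.Def_LinearParabolics

set_option autoImplicit false

namespace Cfsg.Agent.Lib.Helper46

open Cfsg

variable {n : ℕ}

/-- strict partial sums of a composition, indexed by natural numbers -/
def pS (μ : Fin n → ℕ) (t : ℕ) : ℕ := ∑ k ∈ Finset.univ.filter (fun k : Fin n => k.val < t), μ k

theorem pS_zero (μ : Fin n → ℕ) : pS μ 0 = 0 := by simp [pS]

theorem pS_mono (μ : Fin n → ℕ) : Monotone (pS μ) := by
  intro s t hst
  apply Finset.sum_le_sum_of_subset
  intro k hk
  simp only [Finset.mem_filter, Finset.mem_univ, true_and] at hk ⊢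
  omega

theorem pS_succ (μ : Fin n → ℕ) (t : Fin n) : pS μ (t.val + 1) = pS μ t.val + μ t := by
  unfold pS
  have : Finset.univ.filter (fun k : Fin n => k.val < t.val + 1) =
      insert t (Finset.univ.filter (fun k : Fin n => k.val < t.val)) := by
    ext k
    simp only [Finset.mem_filter, Finset.mem_univ, true_and, Finset.mem_insert, Fin.ext_iff]
    omega
  rw [this, Finset.sum_insert (by simp), add_comm]

theorem pS_top (μ : Fin n → ℕ) : pS μ n = ∑ k, μ k := by
  unfold pS
  congr 1
  ext k
  simp

theorem compLabel_eq (μ : Fin n → ℕ) (a : Fin n) :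
    compLabel μ a = (Finset.univ.filter fun j : Fin n => pS μ (j.val + 1) ≤ a.val).card := by
  unfold compLabel pS
  congr 1
  ext j
  simp only [Finset.mem_filter, Finset.mem_univ, true_and]
  have : Finset.univ.filter (fun k : Fin n => k ≤ j) =
      Finset.univ.filter (fun k : Fin n => k.val < j.val + 1) := by
    ext k
    simp only [Finset.mem_filter, Finset.mem_univ, true_and, Fin.le_def]
    omega
  rw [this]

theorem compLabel_le_iff (μ : Fin n → ℕ) (i a : Fin n) :
    compLabel μ a ≤ i.val ↔ a.val < pS μ (i.val + 1) := by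
  rw [compLabel_eq]
  constructor
  · intro h
    by_contra hcon
    rw [not_lt] at hcon
    have hsub : Finset.Iic i ⊆ Finset.univ.filter fun j : Fin n => pS μ (j.val + 1) ≤ a.val := by
      intro j hj
      simp only [Finset.mem_Iic, Fin.le_def] at hj
      simp only [Finset.mem_filter, Finset.mem_univ, true_and]
      exact (pS_mono μ (by omega)).trans hcon
    have := Finset.card_le_card hsub
    rw [Fin.card_Iic] at this
    omega
  · intro h
    have hsub : (Finset.univ.filter fun j : Fin n => pS μ (j.val + 1) ≤ a.val) ⊆ Finset.Iio i := by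
      intro j hj
      simp only [Finset.mem_filter, Finset.mem_univ, true_and] at hj
      simp only [Finset.mem_Iio, Fin.lt_def]
      by_contra hcon
      rw [not_lt] at hcon
      have := pS_mono μ (show i.val + 1 ≤ j.val + 1 by omega)
      omega
    have := Finset.card_le_card hsub
    rw [Fin.card_Iio] at this
    exact this

theorem compLabel_lt_iff (μ : Fin n → ℕ) (a : Fin n) (t : ℕ) (ht : t ≤ n) :
    compLabel μ a < t ↔ a.val < pS μ t := by
  rcases Nat.eq_zero_or_pos t with h0 | h0
  · subst h0; simp [pS_zero]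
  · obtain ⟨t', rfl⟩ : ∃ t', t = t' + 1 := ⟨t - 1, by omega⟩
    have := compLabel_le_iff μ ⟨t', by omega⟩ a
    simp only at this
    rw [← this]
    omega

theorem compLabel_lt (μ : Fin n → ℕ) (hμ : ∑ k, μ k = n) (a : Fin n) : compLabel μ a < n := by
  rw [compLabel_lt_iff μ a n le_rfl, pS_top, hμ]
  exact a.2

theorem card_filter_val_Ico (lo hi : ℕ) (h : hi ≤ n) :
    (Finset.univ.filter fun a : Fin n => lo ≤ a.val ∧ a.val < hi).card = hi - lo := by
  rw [← Nat.card_Ico, ← Finset.card_map Fin.valEmbedding]
  congr 1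
  ext x
  simp only [Finset.mem_map, Finset.mem_filter, Finset.mem_univ, true_and, Fin.valEmbedding_apply,
    Finset.mem_Ico]
  constructor
  · rintro ⟨a, ha, rfl⟩
    exact ha
  · intro hx
    exact ⟨⟨x, by omega⟩, hx, rfl⟩

/-- the blocks of the labelling have the sizes prescribed by the composition -/
theorem card_compLabel_eq (μ : Fin n → ℕ) (hμ : ∑ k, μ k = n) (i : Fin n) :
    (Finset.univ.filter fun a : Fin n => compLabel μ a = i.val).card = μ i := by
  have h1 : pS μ (i.val + 1) ≤ n := by
    have h2 : pS μ n = n := by rw [pS_top, hμ]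
    have h3 := pS_mono μ (show i.val + 1 ≤ n by omega)
    omega
  have : (Finset.univ.filter fun a : Fin n => compLabel μ a = i.val) =
      Finset.univ.filter fun a : Fin n => pS μ i.val ≤ a.val ∧ a.val < pS μ (i.val + 1) := by
    ext a
    simp only [Finset.mem_filter, Finset.mem_univ, true_and]
    have e1 := compLabel_lt_iff μ a i.val (by omega)
    have e2 := compLabel_lt_iff μ a (i.val + 1) (by omega)
    omega
  rw [this, card_filter_val_Ico _ _ h1, pS_succ]
  omega

/-- the label as an element of `Fin n` -/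
def lab (μ : Fin n → ℕ) (hμ : ∑ k, μ k = n) (a : Fin n) : Fin n := ⟨compLabel μ a, compLabel_lt μ hμ a⟩

theorem lab_val (μ : Fin n → ℕ) (hμ : ∑ k, μ k = n) (a : Fin n) :
    (lab μ hμ a).val = compLabel μ a := rfl

theorem card_lab_eq (μ : Fin n → ℕ) (hμ : ∑ k, μ k = n) (i : Fin n) :
    (Finset.univ.filter fun a : Fin n => lab μ hμ a = i).card = μ i := by
  rw [← card_compLabel_eq μ hμ i]
  congr 1
  ext a
  simp [Fin.ext_iff, lab_val]

end Cfsg.Agent.Lib.Helper46
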