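import Mathlib
import Cfsg.Agent.Lib.Helper46.GLnBruhat
import Cfsg.Agent.Lib.Helper46.GLnDoset

set_option autoImplicit false

namespace Cfsg.Agent.Lib.Helper46

open Matrix Cfsg
open scoped MatrixGroups

variable {F : Type*} [Field F] {n : ℕ}

theorem compLabel_mono (μ : Fin n → ℕ) : Monotone (compLabel μ) := by
  intro i j hij
  unfold compLabel
  apply Finset.card_le_card
  intro k hk
  simp only [Finset.mem_filter, Finset.mem_univ, true_and] at hk ⊢
  exact hk.trans hij

theorem upperTriangular_le_parabolic (μ : Fin n → ℕ) :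
    upperTriangularGL n F ≤ parabolicGL n F μ := by
  intro g hg i j hij
  apply hg
  by_contra hcon
  simp only [id, not_lt] at hcon
  exact absurd hij (not_lt.2 (compLabel_mono μ hcon))

theorem permGL_mem_parabolic (μ : Fin n → ℕ) {w : Equiv.Perm (Fin n)} (hw : w ∈ youngSubgroup μ) :
    permGL F n w ∈ parabolicGL n F μ := by
  intro i j hij
  rw [permGL_coe, pm_apply, if_neg]
  intro e
  rw [e] at hij
  have := hw j
  omega

theorem exists_perm_of_det_ne_zero (M : Matrix (Fin n) (Fin n) F) (h : M.det ≠ 0) :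
    ∃ σ : Equiv.Perm (Fin n), ∀ b, M (σ b) b ≠ 0 := by
  by_contra hcon
  push Not at hcon
  apply h
  rw [Matrix.det_apply]
  apply Finset.sum_eq_zero
  intro σ _
  obtain ⟨b, hb⟩ := hcon σ
  have : ∏ i, M (σ i) i = 0 := Finset.prod_eq_zero (f := fun i => M (σ i) i) (Finset.mem_univ b) hb
  rw [this, smul_zero]

theorem eq_of_le_of_perm (f : Fin n → ℕ) (σ τ : Equiv.Perm (Fin n))
    (h : ∀ b, f (σ b) ≤ f (τ b)) : ∀ b, f (σ b) = f (τ b) := by
  have hs : ∑ b, f (σ b) = ∑ b, f (τ b) := by
    rw [Equiv.sum_comp σ f, Equiv.sum_comp τ f]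
  intro b
  exact (Finset.sum_eq_sum_iff_of_le (fun i _ => h i)).1 hs b (Finset.mem_univ b)

theorem young_of_parabolic (α β : Fin n → ℕ) (w w' : Equiv.Perm (Fin n)) (p p' : GL (Fin n) F)
    (hp : p ∈ parabolicGL n F α) (hp' : p' ∈ parabolicGL n F β)
    (h : permGL F n w' = p * permGL F n w * p') :
    ∃ a ∈ youngSubgroup α, ∃ b ∈ youngSubgroup β, w' = a * w * b := by
  have hp'' : p'⁻¹ ∈ parabolicGL n F β := Subgroup.inv_mem _ hp'
  have hM : p * permGL F n w = permGL F n w' * p'⁻¹ := by rw [h]; group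
  have hdet : ((p * permGL F n w : GL (Fin n) F) : Matrix (Fin n) (Fin n) F).det ≠ 0 := by
    have := (Matrix.GeneralLinearGroup.det (p * permGL F n w)).ne_zero
    simpa using this
  obtain ⟨σ, hσ⟩ := exists_perm_of_det_ne_zero _ hdet
  have e1 : ∀ a b, ((p * permGL F n w : GL (Fin n) F) : Matrix (Fin n) (Fin n) F) a b =
      (p : Matrix (Fin n) (Fin n) F) a (w b) := by
    intro a b
    rw [Units.val_mul, permGL_coe, Matrix.mul_apply, Finset.sum_eq_single (w b)]
    · simp [pm_apply]
    · intro c _ hc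
      simp [pm_apply, hc]
    · simp
  have e2 : ∀ a b, ((permGL F n w' * p'⁻¹ : GL (Fin n) F) : Matrix (Fin n) (Fin n) F) a b =
      ((p'⁻¹ : GL (Fin n) F) : Matrix (Fin n) (Fin n) F) (w'⁻¹ a) b := by
    intro a b
    rw [Units.val_mul, permGL_coe, Matrix.mul_apply, Finset.sum_eq_single (w'⁻¹ a)]
    · simp [pm_apply]
    · intro c _ hc
      have : a ≠ w' c := by
        intro e
        apply hc
        rw [e]; simp
      simp [pm_apply, this]
    · simp
  have h1 : ∀ b, compLabel α (σ b) = compLabel α (w b) := by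
    apply eq_of_le_of_perm
    intro b
    by_contra hcon
    rw [not_le] at hcon
    apply hσ b
    rw [e1]
    exact hp hcon
  have h2 : ∀ b, compLabel β ((w'⁻¹ * σ) b) = compLabel β ((1 : Equiv.Perm (Fin n)) b) := by
    apply eq_of_le_of_perm
    intro b
    by_contra hcon
    rw [not_le] at hcon
    apply hσ b
    rw [hM, e2]
    exact hp'' hcon
  refine ⟨σ * w⁻¹, ?_, (w'⁻¹ * σ)⁻¹, Subgroup.inv_mem _ h2, by group⟩
  intro i
  have := h1 (w⁻¹ i)
  simpa using this

theorem card_doset_parabolic (α β : Fin n → ℕ) :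
    Nat.card (DoubleCoset.Quotient (parabolicGL n F α : Set (GL (Fin n) F)) (parabolicGL n F β)) =
      Nat.card (DoubleCoset.Quotient (youngSubgroup α : Set (Equiv.Perm (Fin n)))
        (youngSubgroup β)) := by
  symm
  have hwd : ∀ w w' : Equiv.Perm (Fin n),
      (DoubleCoset.setoid (youngSubgroup α : Set (Equiv.Perm (Fin n))) (youngSubgroup β)) w w' →
      DoubleCoset.mk (parabolicGL n F α) (parabolicGL n F β) (permGL F n w) =
        DoubleCoset.mk (parabolicGL n F α) (parabolicGL n F β) (permGL F n w') := by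
    intro w w' hww
    obtain ⟨a, ha, b, hb, e⟩ := DoubleCoset.rel_iff.1 hww
    rw [DoubleCoset.eq]
    exact ⟨permGL F n a, permGL_mem_parabolic α ha, permGL F n b, permGL_mem_parabolic β hb, by
      rw [e, map_mul, map_mul]⟩
  refine Nat.card_congr (Equiv.ofBijective (Quotient.lift _ hwd) ⟨?_, ?_⟩)
  · intro a b
    induction a using Quotient.inductionOn with | _ w =>
    induction b using Quotient.inductionOn with | _ w' =>
    intro hab
    simp only [Quotient.lift_mk] at hab
    rw [DoubleCoset.eq] at hab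
    obtain ⟨p, hp, p', hp', e⟩ := hab
    apply Quotient.sound
    exact DoubleCoset.rel_iff.2 (young_of_parabolic α β w w' p p' hp hp' e)
  · intro d
    induction d using Quotient.inductionOn with | _ g =>
    obtain ⟨b₁, b₂, w, h1, h2, e⟩ := bruhat_exists g
    refine ⟨Quotient.mk _ w, ?_⟩
    simp only [Quotient.lift_mk]
    exact (DoubleCoset.eq _ _ _ _).2 ⟨b₁, upperTriangular_le_parabolic α h1, b₂,
      upperTriangular_le_parabolic β h2, e⟩

end Cfsg.Agent.Lib.Helper46
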