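import Mathlib
import Cfsg.Agent.Lib.Helper46.CompLabel

set_option autoImplicit false

namespace Cfsg.Agent.Lib.Helper46

open Matrix Cfsg
open scoped MatrixGroups

variable {F : Type*} [Field F] [Fintype F] {n : ℕ}

/-- the order of `GL_m(q)` -/
def glOrd (q m : ℕ) : ℕ := ∏ i ∈ Finset.range m, (q ^ m - q ^ i)

theorem card_GL_eq (m : ℕ) : Nat.card (GL (Fin m) F) = glOrd (Fintype.card F) m := by
  rw [Matrix.card_GL_field, glOrd, Finset.prod_range]

theorem card_det_ne_zero_fin (m : ℕ) :
    Nat.card {A : Matrix (Fin m) (Fin m) F // A.det ≠ 0} = glOrd (Fintype.card F) m := by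
  rw [← card_GL_eq (F := F)]
  symm
  refine Nat.card_congr (Equiv.ofBijective (fun g : GL (Fin m) F => ⟨g.val, ?_⟩) ⟨?_, ?_⟩)
  · have := (Matrix.GeneralLinearGroup.det g).ne_zero
    simpa using this
  · intro g g' h
    apply Units.ext
    exact congrArg Subtype.val h
  · rintro ⟨A, hA⟩
    exact ⟨Matrix.GeneralLinearGroup.mkOfDetNeZero A hA, rfl⟩

theorem card_det_ne_zero (ι : Type*) [Fintype ι] [DecidableEq ι] :
    Nat.card {A : Matrix ι ι F // A.det ≠ 0} = glOrd (Fintype.card F) (Fintype.card ι) := by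
  rw [← card_det_ne_zero_fin (F := F)]
  exact Nat.card_congr (Equiv.subtypeEquiv
    (Matrix.reindex (Fintype.equivFin ι) (Fintype.equivFin ι)) (by
      intro A; rw [Matrix.det_reindex_self]))

/-- block triangular matrices are given by their diagonal blocks and their upper entries -/
def btEquiv (b : Fin n → Fin n) :
    {M : Matrix (Fin n) (Fin n) F // M.BlockTriangular b} ≃
      (∀ k : Fin n, Matrix {a // b a = k} {a // b a = k} F) ×
        ({p : Fin n × Fin n // b p.1 < b p.2} → F) where
  toFun M := (fun k => M.1.toSquareBlock b k, fun p => M.1 p.1.1 p.1.2)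
  invFun x := ⟨Matrix.of fun a c => if h : b a = b c then x.1 (b a) ⟨a, rfl⟩ ⟨c, h.symm⟩
      else if h' : b a < b c then x.2 ⟨(a, c), h'⟩ else 0, by
    intro a c hac
    rw [Matrix.of_apply, dif_neg (ne_of_gt hac), dif_neg (not_lt.2 hac.le)]⟩
  left_inv := by
    rintro ⟨M, hM⟩
    apply Subtype.ext
    ext a c
    simp only [Matrix.of_apply]
    by_cases h : b a = b c
    · rw [dif_pos h]; rfl
    · rw [dif_neg h]
      by_cases h' : b a < b c
      · rw [dif_pos h']
      · rw [dif_neg h']
        exact (hM (lt_of_le_of_ne (not_lt.1 h') (Ne.symm h))).symm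
  right_inv := by
    rintro ⟨D, u⟩
    apply Prod.ext
    · funext k
      ext ⟨a, ha⟩ ⟨c, hc⟩
      subst ha
      simp only [Matrix.toSquareBlock_def, Matrix.of_apply]
      rw [dif_pos hc.symm]
    · funext ⟨⟨a, c⟩, h⟩
      simp only [Matrix.of_apply]
      rw [dif_neg (ne_of_lt h), dif_pos h]

theorem card_bt_det (b : Fin n → Fin n) :
    Nat.card {M : Matrix (Fin n) (Fin n) F // M.BlockTriangular b ∧ M.det ≠ 0} =
      (∏ k : Fin n, glOrd (Fintype.card F) (Fintype.card {a // b a = k})) *
        Fintype.card F ^ Fintype.card {p : Fin n × Fin n // b p.1 < b p.2} := by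
  classical
  have e1 : {M : Matrix (Fin n) (Fin n) F // M.BlockTriangular b ∧ M.det ≠ 0} ≃
      {M' : {M : Matrix (Fin n) (Fin n) F // M.BlockTriangular b} // M'.1.det ≠ 0} :=
    (Equiv.subtypeSubtypeEquivSubtypeInter _ _).symm
  have e2 : {M' : {M : Matrix (Fin n) (Fin n) F // M.BlockTriangular b} // M'.1.det ≠ 0} ≃
      {x : (∀ k : Fin n, Matrix {a // b a = k} {a // b a = k} F) ×
        ({p : Fin n × Fin n // b p.1 < b p.2} → F) // ∀ k, (x.1 k).det ≠ 0} :=
    Equiv.subtypeEquiv (btEquiv b) (by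
      rintro ⟨M, hM⟩
      simp only [btEquiv, Equiv.coe_fn_mk]
      rw [hM.det_fintype, Finset.prod_ne_zero_iff]
      simp)
  have e3 := Equiv.prodSubtypeFstEquivSubtypeProd
    (α := ∀ k : Fin n, Matrix {a // b a = k} {a // b a = k} F)
    (β := {p : Fin n × Fin n // b p.1 < b p.2} → F) (p := fun D => ∀ k, (D k).det ≠ 0)
  have e4 := Equiv.subtypePiEquivPi (β := fun k : Fin n => Matrix {a // b a = k} {a // b a = k} F)
    (p := fun k A => A.det ≠ 0)
  rw [Nat.card_congr (e1.trans (e2.trans e3)), Nat.card_prod, Nat.card_congr e4, Nat.card_pi,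
    Nat.card_fun, Nat.card_eq_fintype_card, Nat.card_eq_fintype_card]
  congr 1
  exact Finset.prod_congr rfl fun k _ => card_det_ne_zero _

/-- the order of a standard parabolic subgroup -/
theorem card_parabolic (μ : Fin n → ℕ) (hμ : ∑ k, μ k = n) :
    Nat.card (parabolicGL n F μ) =
      (∏ k : Fin n, glOrd (Fintype.card F) (μ k)) *
        Fintype.card F ^ (Finset.univ.filter fun p : Fin n × Fin n =>
          lab μ hμ p.1 < lab μ hμ p.2).card := by
  classical
  have e : parabolicGL n F μ ≃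
      {M : Matrix (Fin n) (Fin n) F // M.BlockTriangular (lab μ hμ) ∧ M.det ≠ 0} := by
    refine Equiv.ofBijective (fun g => ⟨g.1.val, ?_, ?_⟩) ⟨?_, ?_⟩
    · intro i j hij
      exact g.2 hij
    · have := (Matrix.GeneralLinearGroup.det g.1).ne_zero
      simpa using this
    · intro g g' h
      apply Subtype.ext
      apply Units.ext
      exact congrArg Subtype.val h
    · rintro ⟨A, hA, hd⟩
      exact ⟨⟨Matrix.GeneralLinearGroup.mkOfDetNeZero A hd, fun i j hij => hA hij⟩, rfl⟩
  rw [Nat.card_congr e, card_bt_det, Fintype.card_subtype]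
  congr 1
  refine Finset.prod_congr rfl fun k _ => ?_
  rw [Fintype.card_subtype, card_lab_eq]

end Cfsg.Agent.Lib.Helper46
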