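import Mathlib
import Cfsg.Agent.Lib.Helper46.ParabolicCard

set_option autoImplicit false

namespace Cfsg.Agent.Lib.Helper46

open Matrix Cfsg
open scoped MatrixGroups

/-- the `q`-factorial -/
def qf (q r : ℕ) : ℕ := ∏ j ∈ Finset.range r, ∑ l ∈ Finset.range (j + 1), q ^ l

theorem glOrd_eq (q m : ℕ) (hq : 1 ≤ q) :
    glOrd q m = q ^ (∑ i ∈ Finset.range m, i) * (q - 1) ^ m * qf q m := by
  obtain ⟨x, rfl⟩ : ∃ x, q = x + 1 := ⟨q - 1, by omega⟩
  rw [Nat.add_sub_cancel]
  unfold glOrd qf
  have h1 : ∀ i ∈ Finset.range m, (x + 1) ^ m - (x + 1) ^ i =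
      (x + 1) ^ i * (x * ∑ l ∈ Finset.range (m - 1 - i + 1), (x + 1) ^ l) := by
    intro i hi
    rw [Finset.mem_range] at hi
    have e : m - 1 - i + 1 = m - i := by omega
    rw [e]
    have h2 := geom_sum_mul_add x (m - i)
    have h3 : (x + 1) ^ m = (x + 1) ^ i * (x + 1) ^ (m - i) := by
      rw [← pow_add]; congr 1; omega
    rw [h3, ← h2]
    have : (x + 1) ^ i * ((∑ i ∈ Finset.range (m - i), (x + 1) ^ i) * x + 1) =
        (x + 1) ^ i * (x * ∑ l ∈ Finset.range (m - i), (x + 1) ^ l) + (x + 1) ^ i := by ring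
    rw [this, Nat.add_sub_cancel]
  rw [Finset.prod_congr rfl h1, Finset.prod_mul_distrib, Finset.prod_mul_distrib,
    Finset.prod_pow_eq_pow_sum, Finset.prod_const, Finset.card_range,
    Finset.prod_range_reflect (fun j => ∑ l ∈ Finset.range (j + 1), (x + 1) ^ l) m]
  ring

variable {n : ℕ}

theorem up_count (μ : Fin n → ℕ) (hμ : ∑ k, μ k = n) :
    (Finset.univ.filter fun p : Fin n × Fin n => lab μ hμ p.1 < lab μ hμ p.2).card +
      ∑ k, ∑ i ∈ Finset.range (μ k), i = ∑ i ∈ Finset.range n, i := by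
  classical
  set b := lab μ hμ with hb
  have htot : n * n = (Finset.univ.filter fun p : Fin n × Fin n => b p.2 < b p.1).card +
      (Finset.univ.filter fun p : Fin n × Fin n => b p.1 = b p.2).card +
      (Finset.univ.filter fun p : Fin n × Fin n => b p.1 < b p.2).card := by
    rw [Finset.card_filter, Finset.card_filter, Finset.card_filter, ← Finset.sum_add_distrib,
      ← Finset.sum_add_distrib]
    have : ∀ p : Fin n × Fin n, ((if b p.2 < b p.1 then 1 else 0) + (if b p.1 = b p.2 then 1 else 0) +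
        (if b p.1 < b p.2 then 1 else 0) : ℕ) = 1 := by
      intro p
      rcases lt_trichotomy (b p.1) (b p.2) with h | h | h
      · simp [h, h.ne, not_lt.2 h.le]
      · simp [h]
      · simp [h, h.ne', not_lt.2 h.le]
    simp only [this]
    simp
  have hswap : (Finset.univ.filter fun p : Fin n × Fin n => b p.2 < b p.1).card =
      (Finset.univ.filter fun p : Fin n × Fin n => b p.1 < b p.2).card :=
    Finset.card_equiv (Equiv.prodComm _ _) (by simp)
  have hdiag : (Finset.univ.filter fun p : Fin n × Fin n => b p.1 = b p.2).card =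
      ∑ k, μ k * μ k := by
    rw [Finset.card_eq_sum_card_fiberwise (f := fun p : Fin n × Fin n => b p.1)
      (t := Finset.univ) (by simp)]
    refine Finset.sum_congr rfl fun k _ => ?_
    rw [Finset.filter_filter]
    have : (Finset.univ.filter fun p : Fin n × Fin n => b p.1 = b p.2 ∧ b p.1 = k) =
        (Finset.univ.filter fun a => b a = k) ×ˢ (Finset.univ.filter fun a => b a = k) := by
      ext p
      simp only [Finset.mem_filter, Finset.mem_univ, true_and, Finset.mem_product]
      constructor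
      · rintro ⟨h1, h2⟩
        exact ⟨h2, by rw [← h1, h2]⟩
      · rintro ⟨h1, h2⟩
        exact ⟨by rw [h1, h2], h1⟩
    rw [this, Finset.card_product, hb, card_lab_eq]
  have ht : ∀ m : ℕ, 2 * ∑ i ∈ Finset.range m, i + m = m * m := by
    intro m
    have := Finset.sum_range_id_mul_two m
    rcases Nat.eq_zero_or_pos m with h0 | h0
    · subst h0; simp
    · obtain ⟨m', rfl⟩ : ∃ m', m = m' + 1 := ⟨m - 1, by omega⟩
      rw [Nat.add_sub_cancel] at this
      nlinarith
  have hs : ∑ k, μ k * μ k = 2 * ∑ k, ∑ i ∈ Finset.range (μ k), i + n := by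
    have e : ∑ k, μ k * μ k = ∑ k, (2 * ∑ i ∈ Finset.range (μ k), i + μ k) :=
      Finset.sum_congr rfl fun k _ => (ht (μ k)).symm
    rw [e, Finset.sum_add_distrib, hμ, Finset.mul_sum]
  have := ht n
  rw [hswap, hdiag, hs] at htot
  omega

variable {F : Type*} [Field F] [Fintype F]

theorem index_parabolic (μ : Fin n → ℕ) (hμ : ∑ k, μ k = n) :
    Nat.card (GL (Fin n) F ⧸ parabolicGL n F μ) * ∏ i : Fin n, qf (Fintype.card F) (μ i) =
      qf (Fintype.card F) n := by
  have hq : 2 ≤ Fintype.card F := Fintype.one_lt_card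
  set q := Fintype.card F with hqdef
  have h1 := (parabolicGL n F μ).card_mul_index
  rw [card_parabolic μ hμ, card_GL_eq, ← hqdef, glOrd_eq q n (by omega)] at h1
  have h2 : ∏ k : Fin n, glOrd q (μ k) =
      q ^ (∑ k, ∑ i ∈ Finset.range (μ k), i) * (q - 1) ^ n * ∏ k, qf q (μ k) := by
    rw [Finset.prod_congr rfl fun k _ => glOrd_eq q (μ k) (by omega), Finset.prod_mul_distrib,
      Finset.prod_mul_distrib, Finset.prod_pow_eq_pow_sum, Finset.prod_pow_eq_pow_sum, hμ]
  rw [h2, ← up_count μ hμ, pow_add] at h1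
  have hpos : 0 < q ^ (Finset.univ.filter fun p : Fin n × Fin n => lab μ hμ p.1 < lab μ hμ p.2).card *
      q ^ (∑ k, ∑ i ∈ Finset.range (μ k), i) * (q - 1) ^ n := by
    have : 0 < q - 1 := by omega
    positivity
  apply Nat.eq_of_mul_eq_mul_left hpos
  change _ * ((parabolicGL n F μ).index * _) = _
  rw [← h1]
  ring

end Cfsg.Agent.Lib.Helper46
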