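import Cfsg.Agent.Lib.Helper46.SL2Nonsplit
import Cfsg.Agent.Lib.Helper19.IndFun2
import Cfsg.Prelude.Def_ParabolicCharacters

set_option autoImplicit false
set_option linter.unusedSimpArgs false

namespace Cfsg.Agent.Lib.Helper46

open Matrix Cfsg Cfsg.Agent.Lib.Helper19

variable {F : Type*} [Field F]

/-- the Borel subgroup of SL2 in the shape used by the statements -/
abbrev Bor (F : Type*) [Field F] : Subgroup (SpecialLinearGroup (Fin 2) F) :=
  (Cfsg.upperTriangularGL 2 F).comap Matrix.SpecialLinearGroup.toGL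

theorem mem_Bor_iff (g : SpecialLinearGroup (Fin 2) F) :
    g ∈ Bor F ↔ (g : Matrix (Fin 2) (Fin 2) F) 1 0 = 0 := by
  rw [Subgroup.mem_comap]
  change (g : Matrix (Fin 2) (Fin 2) F).BlockTriangular id ↔ _
  constructor
  · intro h
    exact h (show id (0 : Fin 2) < id 1 by decide)
  · intro h i j hij
    fin_cases i <;> fin_cases j <;> simp_all

/-- extension by zero of `b ↦ α b₀₀` -/
theorem ext_alpha (α : MulChar F ℂ) (h : SpecialLinearGroup (Fin 2) F) [Decidable ((h : Matrix (Fin 2) (Fin 2) F) 1 0 = 0)] :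
    extendByZero (Bor F) (fun b => α (((b : SpecialLinearGroup (Fin 2) F) : Matrix (Fin 2) (Fin 2) F) 0 0)) h
      = if (h : Matrix (Fin 2) (Fin 2) F) 1 0 = 0 then α ((h : Matrix (Fin 2) (Fin 2) F) 0 0) else 0 := by
  split_ifs with h0
  · rw [extendByZero_of_mem _ _ ((mem_Bor_iff h).2 h0)]
  · rw [extendByZero_of_not_mem _ _ (fun hh => h0 ((mem_Bor_iff h).1 hh))]

theorem ext_alpha_conj (α : MulChar F ℂ) (h b : SpecialLinearGroup (Fin 2) F) (hb : b ∈ Bor F) :
    extendByZero (Bor F) (fun b => α (((b : SpecialLinearGroup (Fin 2) F) : Matrix (Fin 2) (Fin 2) F) 0 0))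
      (b⁻¹ * h * b) =
    extendByZero (Bor F) (fun b => α (((b : SpecialLinearGroup (Fin 2) F) : Matrix (Fin 2) (Fin 2) F) 0 0)) h := by
  classical
  rw [ext_alpha, ext_alpha]
  rw [mem_Bor_iff] at hb
  have hd := det2 b
  rw [hb, mul_zero, sub_zero] at hd
  have h0 : (b : Matrix (Fin 2) (Fin 2) F) 0 0 ≠ 0 := left_ne_zero_of_mul_eq_one hd
  have e10 : ((b⁻¹ * h * b : SpecialLinearGroup (Fin 2) F) : Matrix (Fin 2) (Fin 2) F) 1 0
      = (h : Matrix (Fin 2) (Fin 2) F) 1 0 * (b : Matrix (Fin 2) (Fin 2) F) 0 0 ^ 2 := by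
    simp only [mul_00, mul_01, mul_10, mul_11, inv_00, inv_01, inv_10, inv_11, hb]
    ring
  have e00 : (h : Matrix (Fin 2) (Fin 2) F) 1 0 = 0 →
      ((b⁻¹ * h * b : SpecialLinearGroup (Fin 2) F) : Matrix (Fin 2) (Fin 2) F) 0 0
      = (h : Matrix (Fin 2) (Fin 2) F) 0 0 := by
    intro hh
    simp only [mul_00, mul_01, mul_10, mul_11, inv_00, inv_01, inv_10, inv_11, hb, hh]
    linear_combination (h : Matrix (Fin 2) (Fin 2) F) 0 0 * hd
  by_cases hh : (h : Matrix (Fin 2) (Fin 2) F) 1 0 = 0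
  · rw [if_pos hh, if_pos (by rw [e10, hh, zero_mul]), e00 hh]
  · rw [if_neg hh, if_neg (by rw [e10]; exact mul_ne_zero hh (pow_ne_zero 2 h0))]

/-- coset representatives of the Borel subgroup -/
def rep : Option F → SpecialLinearGroup (Fin 2) F
  | none => ww
  | some c => ll c

theorem coset_bijective :
    Function.Bijective (fun p : Option F × Bor F => rep p.1 * (p.2 : SpecialLinearGroup (Fin 2) F)) := by
  constructor
  · rintro ⟨o, ⟨b, hb⟩⟩ ⟨o', ⟨b', hb'⟩⟩ h
    simp only at h
    rw [mem_Bor_iff] at hb hb'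
    have hd := det2 b
    rw [hb, mul_zero, sub_zero] at hd
    have h0 : (b : Matrix (Fin 2) (Fin 2) F) 0 0 ≠ 0 := left_ne_zero_of_mul_eq_one hd
    have hd' := det2 b'
    rw [hb', mul_zero, sub_zero] at hd'
    have h0' : (b' : Matrix (Fin 2) (Fin 2) F) 0 0 ≠ 0 := left_ne_zero_of_mul_eq_one hd'
    have e00 := congrArg (fun Z : SpecialLinearGroup (Fin 2) F => (Z : Matrix (Fin 2) (Fin 2) F) 0 0) h
    have e10 := congrArg (fun Z : SpecialLinearGroup (Fin 2) F => (Z : Matrix (Fin 2) (Fin 2) F) 1 0) h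
    have ho : o = o' := by
      cases o with
      | none =>
        cases o' with
        | none => rfl
        | some c' =>
          simp only [rep, mul_00, ww, ll, mk2_00, mk2_01, hb, hb'] at e00
          exfalso; apply h0'; linear_combination -e00
      | some c =>
        cases o' with
        | none =>
          simp only [rep, mul_00, ww, ll, mk2_00, mk2_01, hb, hb'] at e00
          exfalso; apply h0; linear_combination e00
        | some c' =>
          simp only [rep, mul_00, mul_10, ll, mk2_00, mk2_01, mk2_10, mk2_11, hb, hb'] at e00 e10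
          have e : (b : Matrix (Fin 2) (Fin 2) F) 0 0 = (b' : Matrix (Fin 2) (Fin 2) F) 0 0 := by
            linear_combination e00
          have : (c - c') * (b : Matrix (Fin 2) (Fin 2) F) 0 0 = 0 := by
            linear_combination e10 - c' * e
          have := (mul_eq_zero.1 this).resolve_right h0
          congr 1
          linear_combination this
    subst ho
    have : b = b' := mul_left_cancel h
    subst this
    rfl
  · intro x
    by_cases hp : (x : Matrix (Fin 2) (Fin 2) F) 0 0 = 0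
    · refine ⟨(none, ⟨ww⁻¹ * x, ?_⟩), by simp [rep]⟩
      rw [mem_Bor_iff]
      simp only [mul_10, inv_10, inv_11, ww, mk2_00, mk2_01, mk2_10, mk2_11, hp]
      ring
    · refine ⟨(some ((x : Matrix (Fin 2) (Fin 2) F) 1 0 / (x : Matrix (Fin 2) (Fin 2) F) 0 0),
        ⟨(ll ((x : Matrix (Fin 2) (Fin 2) F) 1 0 / (x : Matrix (Fin 2) (Fin 2) F) 0 0))⁻¹ * x, ?_⟩),
        by simp [rep]⟩
      rw [mem_Bor_iff]
      simp only [mul_10, inv_10, inv_11, ll, mk2_00, mk2_01, mk2_10, mk2_11]
      field_simp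
      ring

/-- sum over SL2 by cosets of the Borel subgroup -/
theorem sum_SL2_coset [Fintype F] [DecidableEq F] [Fintype (Bor F)]
    (f : SpecialLinearGroup (Fin 2) F → ℂ) :
    ∑ x : SpecialLinearGroup (Fin 2) F, f x =
      ∑ o : Option F, ∑ b : Bor F, f (rep o * (b : SpecialLinearGroup (Fin 2) F)) := by
  rw [← Fintype.sum_prod_type']
  exact (Function.Bijective.sum_comp coset_bijective f).symm

/-- the principal series function -/
noncomputable def RR [Fintype F] [DecidableEq F] (α : MulChar F ℂ) :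
    SpecialLinearGroup (Fin 2) F → ℂ :=
  Cfsg.indFun (Bor F)
    (fun b => α (((b : SpecialLinearGroup (Fin 2) F) : Matrix (Fin 2) (Fin 2) F) 0 0))

theorem RR_apply [Fintype F] [DecidableEq F] (α : MulChar F ℂ) (g : SpecialLinearGroup (Fin 2) F) :
    RR α g = (∑ c : F,
      if (g : Matrix (Fin 2) (Fin 2) F) 1 0
          + ((g : Matrix (Fin 2) (Fin 2) F) 1 1 - (g : Matrix (Fin 2) (Fin 2) F) 0 0) * c
          - (g : Matrix (Fin 2) (Fin 2) F) 0 1 * c ^ 2 = 0
        then α ((g : Matrix (Fin 2) (Fin 2) F) 0 0 + (g : Matrix (Fin 2) (Fin 2) F) 0 1 * c) else 0)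
      + (if (g : Matrix (Fin 2) (Fin 2) F) 0 1 = 0 then α ((g : Matrix (Fin 2) (Fin 2) F) 1 1) else 0) := by
  classical
  have := finite_SL2 (F := F)
  have : Fintype (Bor F) := Fintype.ofFinite _
  rw [RR, indFun_apply, sum_SL2_coset]
  have hb : ∀ (o : Option F) (b : Bor F),
      extendByZero (Bor F) (fun b => α (((b : SpecialLinearGroup (Fin 2) F) : Matrix (Fin 2) (Fin 2) F) 0 0))
        ((rep o * (b : SpecialLinearGroup (Fin 2) F))⁻¹ * g * (rep o * (b : SpecialLinearGroup (Fin 2) F)))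
      = extendByZero (Bor F) (fun b => α (((b : SpecialLinearGroup (Fin 2) F) : Matrix (Fin 2) (Fin 2) F) 0 0))
        ((rep o)⁻¹ * g * rep o) := by
    intro o b
    rw [← ext_alpha_conj α ((rep o)⁻¹ * g * rep o) b b.2]
    congr 1
    group
  simp only [hb, Finset.sum_const, Finset.card_univ, nsmul_eq_mul]
  rw [← Finset.mul_sum, ← mul_assoc, Nat.card_eq_fintype_card,
    inv_mul_cancel₀ (by exact_mod_cast Fintype.card_ne_zero), one_mul, Fintype.sum_option, add_comm]
  congr 1
  · apply Finset.sum_congr rfl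
    intro c _
    rw [ext_alpha]
    have e10 : (((rep (some c))⁻¹ * g * rep (some c) : SpecialLinearGroup (Fin 2) F) : Matrix (Fin 2) (Fin 2) F) 1 0
        = (g : Matrix (Fin 2) (Fin 2) F) 1 0
          + ((g : Matrix (Fin 2) (Fin 2) F) 1 1 - (g : Matrix (Fin 2) (Fin 2) F) 0 0) * c
          - (g : Matrix (Fin 2) (Fin 2) F) 0 1 * c ^ 2 := by
      simp only [rep, mul_00, mul_01, mul_10, mul_11, inv_00, inv_01, inv_10, inv_11, ll,
        mk2_00, mk2_01, mk2_10, mk2_11]
      ring
    have e00 : (((rep (some c))⁻¹ * g * rep (some c) : SpecialLinearGroup (Fin 2) F) : Matrix (Fin 2) (Fin 2) F) 0 0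
        = (g : Matrix (Fin 2) (Fin 2) F) 0 0 + (g : Matrix (Fin 2) (Fin 2) F) 0 1 * c := by
      simp only [rep, mul_00, mul_01, mul_10, mul_11, inv_00, inv_01, inv_10, inv_11, ll,
        mk2_00, mk2_01, mk2_10, mk2_11]
      ring
    rw [e10, e00]
  · rw [ext_alpha]
    have e10 : (((rep (none : Option F))⁻¹ * g * rep none : SpecialLinearGroup (Fin 2) F) : Matrix (Fin 2) (Fin 2) F) 1 0
        = - (g : Matrix (Fin 2) (Fin 2) F) 0 1 := by
      simp only [rep, mul_00, mul_01, mul_10, mul_11, inv_00, inv_01, inv_10, inv_11, ww,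
        mk2_00, mk2_01, mk2_10, mk2_11]
      ring
    have e00 : (((rep (none : Option F))⁻¹ * g * rep none : SpecialLinearGroup (Fin 2) F) : Matrix (Fin 2) (Fin 2) F) 0 0
        = (g : Matrix (Fin 2) (Fin 2) F) 1 1 := by
      simp only [rep, mul_00, mul_01, mul_10, mul_11, inv_00, inv_01, inv_10, inv_11, ww,
        mk2_00, mk2_01, mk2_10, mk2_11]
      ring
    rw [e10, e00]
    simp only [neg_eq_zero]

end Cfsg.Agent.Lib.Helper46
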