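import Mathlib

set_option autoImplicit false
set_option linter.unusedSimpArgs false

namespace Cfsg.Agent.Lib.Helper46

variable {G : Type*} [Group G]

theorem centralizer_map_equiv (S : Subgroup G) (e : G ≃* G) :
    Subgroup.centralizer ((S.map e.toMonoidHom : Subgroup G) : Set G) =
      (Subgroup.centralizer (S : Set G)).map e.toMonoidHom := by
  ext x
  rw [Subgroup.mem_map_equiv, Subgroup.mem_centralizer_iff, Subgroup.mem_centralizer_iff]
  constructor
  · intro h s hs
    have := h (e s) (by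
      rw [SetLike.mem_coe, Subgroup.mem_map_equiv]; simpa using hs)
    apply e.injective
    simpa using this
  · intro h s hs
    rw [SetLike.mem_coe, Subgroup.mem_map_equiv] at hs
    have := h _ hs
    have h2 := congrArg e this
    simpa using h2

theorem sylow_torus_aux [Finite G] (ℓ : ℕ) [Fact ℓ.Prime] (T : Subgroup G)
    (hcomm : ∀ a ∈ T, ∀ b ∈ T, a * b = b * a)
    (hC : ∀ t ∈ T, orderOf t = ℓ → Subgroup.centralizer ({t} : Set G) = T)
    (Q : Sylow ℓ G) (y : G) (hyT : y ∈ T) (hyo : orderOf y = ℓ) (hyQ : y ∈ Q) :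
    Subgroup.centralizer ((Q : Subgroup G) : Set G) = T ∧
      Subgroup.normalizer ((Q : Subgroup G) : Set G) = Subgroup.normalizer (T : Set G) := by
  have hℓ : ℓ.Prime := Fact.out
  have hy1 : y ≠ 1 := by
    rintro rfl
    rw [orderOf_one] at hyo
    exact hℓ.one_lt.ne hyo
  have hnt : Nontrivial (Q : Subgroup G) := ⟨⟨⟨y, hyQ⟩, 1, fun h => hy1 (congrArg Subtype.val h)⟩⟩
  have hcnt := Q.isPGroup'.center_nontrivial
  have hdvd : ℓ ∣ Nat.card (Subgroup.center (Q : Subgroup G)) := by
    have hp : IsPGroup ℓ (Subgroup.center (Q : Subgroup G)) := Q.isPGroup'.to_subgroup _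
    rcases hp.card_eq_or_dvd with h | h
    · exact absurd h (Finite.one_lt_card).ne'
    · exact h
  obtain ⟨z', hz'⟩ := exists_prime_orderOf_dvd_card' ℓ hdvd
  set z : G := ((z' : (Q : Subgroup G)) : G) with hz
  have hzo : orderOf z = ℓ := by
    rw [hz, Subgroup.orderOf_coe, Subgroup.orderOf_coe, hz']
  have hzQ : z ∈ (Q : Subgroup G) := (z' : (Q : Subgroup G)).2
  have hzc : ∀ x ∈ (Q : Subgroup G), x * z = z * x := by
    intro x hx
    have := Subgroup.mem_center_iff.1 z'.2 ⟨x, hx⟩
    exact congrArg Subtype.val this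
  have hzT : z ∈ T := by
    rw [← hC y hyT hyo, Subgroup.mem_centralizer_singleton_iff]
    exact (hzc y hyQ).symm
  have hCz := hC z hzT hzo
  have hQT : (Q : Subgroup G) ≤ T := by
    intro x hx
    rw [← hCz, Subgroup.mem_centralizer_singleton_iff]
    exact hzc x hx
  have hCQ : Subgroup.centralizer ((Q : Subgroup G) : Set G) = T := by
    apply le_antisymm
    · intro h hh
      rw [← hCz, Subgroup.mem_centralizer_singleton_iff]
      exact (Subgroup.mem_centralizer_iff.1 hh z hzQ).symm
    · intro t ht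
      rw [Subgroup.mem_centralizer_iff]
      intro x hx
      exact hcomm x (hQT hx) t ht
  refine ⟨hCQ, le_antisymm ?_ ?_⟩
  · -- N(Q) ≤ N(C(Q))
    have key : ∀ g ∈ Subgroup.normalizer ((Q : Subgroup G) : Set G), ∀ h ∈ T, g * h * g⁻¹ ∈ T := by
      intro g hg h hh
      rw [← hCQ, Subgroup.mem_centralizer_iff] at hh ⊢
      intro x hx
      have hx' : g⁻¹ * x * g ∈ ((Q : Subgroup G) : Set G) :=
        (Subgroup.mem_normalizer_iff''.1 hg x).1 hx
      have := hh _ hx'
      calc x * (g * h * g⁻¹) = g * ((g⁻¹ * x * g) * h) * g⁻¹ := by group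
        _ = g * (h * (g⁻¹ * x * g)) * g⁻¹ := by rw [this]
        _ = g * h * g⁻¹ * x := by group
    intro g hg
    rw [Subgroup.mem_normalizer_iff]
    intro h
    constructor
    · exact key g hg h
    · intro hh
      have := key g⁻¹ (Subgroup.inv_mem _ hg) _ hh
      have e : g⁻¹ * (g * h * g⁻¹) * g⁻¹⁻¹ = h := by group
      rwa [e] at this
  · intro g hg
    refine (Sylow.smul_eq_iff_mem_normalizer (P := Q)).1 ?_
    have hQ'T : ((g • Q : Sylow ℓ G) : Subgroup G) ≤ T := by
      intro x hx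
      rw [Sylow.coe_subgroup_smul, Subgroup.mem_pointwise_smul_iff_inv_smul_mem] at hx
      have h1 := hQT hx
      have h2 := (Subgroup.mem_normalizer_iff.1 hg _).1 h1
      simpa [MulAut.smul_def, mul_assoc] using h2
    have hnorm : (Q : Subgroup G) ≤
        Subgroup.normalizer (((g • Q : Sylow ℓ G) : Subgroup G) : Set G) := by
      intro x hx
      rw [Subgroup.mem_normalizer_iff]
      intro h
      constructor
      · intro hh
        have := hcomm x (hQT hx) h (hQ'T hh)
        rw [this, mul_inv_cancel_right]; exact hh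
      · intro hh
        have h1 : h ∈ T := by
          have := T.mul_mem (T.mul_mem (T.inv_mem (hQT hx)) (hQ'T hh)) (hQT hx)
          simpa [mul_assoc] using this
        have := hcomm x (hQT hx) h h1
        rwa [this, mul_inv_cancel_right] at hh
    have hsup := IsPGroup.to_sup_of_normal_right' Q.isPGroup' (g • Q).isPGroup' hnorm
    have e1 := Q.is_maximal' hsup le_sup_left
    have e2 := (g • Q).is_maximal' hsup le_sup_right
    exact Sylow.ext (e2.symm.trans e1)

theorem sylow_torus [Finite G] (ℓ : ℕ) [Fact ℓ.Prime] (T : Subgroup G)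
    (hcomm : ∀ a ∈ T, ∀ b ∈ T, a * b = b * a)
    (hC : ∀ t ∈ T, orderOf t = ℓ → Subgroup.centralizer ({t} : Set G) = T)
    (hex : ∃ y ∈ T, orderOf y = ℓ) (P : Sylow ℓ G) :
    ∃ e : G ≃* G, Subgroup.centralizer ((P : Subgroup G) : Set G) = T.map e.toMonoidHom ∧
      Subgroup.normalizer ((P : Subgroup G) : Set G) =
        (Subgroup.normalizer (T : Set G)).map e.toMonoidHom := by
  obtain ⟨y, hyT, hyo⟩ := hex
  have hpg : IsPGroup ℓ (Subgroup.zpowers y) := by
    rw [IsPGroup.iff_card]
    exact ⟨1, by rw [Nat.card_zpowers, hyo, pow_one]⟩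
  obtain ⟨Q, hQ⟩ := hpg.exists_le_sylow
  obtain ⟨h1, h2⟩ := sylow_torus_aux ℓ T hcomm hC Q y hyT hyo (hQ (Subgroup.mem_zpowers y))
  obtain ⟨g, rfl⟩ := MulAction.exists_smul_eq G Q P
  refine ⟨MulAut.conj g, ?_, ?_⟩
  · have : ((g • Q : Sylow ℓ G) : Subgroup G) = (Q : Subgroup G).map (MulAut.conj g).toMonoidHom := rfl
    rw [this, centralizer_map_equiv, h1]
  · have : ((g • Q : Sylow ℓ G) : Subgroup G) = (Q : Subgroup G).map (MulAut.conj g).toMonoidHom := rfl
    rw [this, ← Subgroup.map_equiv_normalizer_eq, h2]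

theorem card_map_equiv (K : Subgroup G) (e : G ≃* G) :
    Nat.card (K.map e.toMonoidHom) = Nat.card K :=
  Nat.card_congr (K.equivMapOfInjective e.toMonoidHom e.injective).toEquiv.symm

theorem isCyclic_map_equiv (K : Subgroup G) (e : G ≃* G) (h : IsCyclic K) :
    IsCyclic (K.map e.toMonoidHom) :=
  (K.equivMapOfInjective e.toMonoidHom e.injective).isCyclic.1 h

end Cfsg.Agent.Lib.Helper46
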