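import Mathlib
import Cfsg.Agent.Lib.Helper46.CauchyDet

set_option autoImplicit false

namespace Cfsg.Agent.Lib.Helper46

open MvPowerSeries

variable {n : ℕ}

/-- the exponent vector with `x`-part `a` and `y`-part `b` -/
noncomputable def expo (a b : Fin n → ℕ) : (Fin n ⊕ Fin n) →₀ ℕ :=
  Finsupp.equivFunOnFinite.symm (Sum.elim a b)

@[simp] theorem expo_inl (a b : Fin n → ℕ) (i : Fin n) : expo a b (Sum.inl i) = a i := rfl

@[simp] theorem expo_inr (a b : Fin n → ℕ) (j : Fin n) : expo a b (Sum.inr j) = b j := rfl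

theorem expo_le_iff (a b a' b' : Fin n → ℕ) :
    expo a b ≤ expo a' b' ↔ (∀ i, a i ≤ a' i) ∧ (∀ j, b j ≤ b' j) := by
  rw [Finsupp.le_def]
  constructor
  · intro h
    exact ⟨fun i => h (Sum.inl i), fun j => h (Sum.inr j)⟩
  · rintro ⟨h1, h2⟩ (i | j)
    · exact h1 i
    · exact h2 j

theorem expo_sub (a b a' b' : Fin n → ℕ) :
    expo a b - expo a' b' = expo (fun i => a i - a' i) (fun j => b j - b' j) := by
  ext (i | j) <;> simp [Finsupp.tsub_apply]

/-- the exponent of `x_i y_j` -/
noncomputable def eP (p : Fin n × Fin n) : (Fin n ⊕ Fin n) →₀ ℕ :=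
  expo (fun i => if i = p.1 then 1 else 0) (fun j => if j = p.2 then 1 else 0)

/-- tables supported on `S` with margins given by `d` -/
def TS (S : Finset (Fin n × Fin n)) (d : (Fin n ⊕ Fin n) →₀ ℕ) : Finset (Fin n × Fin n → ℕ) :=
  (Fintype.piFinset fun p : Fin n × Fin n => Finset.range (d (Sum.inl p.1) + 1)).filter fun m =>
    (∀ p, p ∉ S → m p = 0) ∧ (∀ i, ∑ j, m (i, j) = d (Sum.inl i)) ∧
      (∀ j, ∑ i, m (i, j) = d (Sum.inr j))

theorem mem_TS (S : Finset (Fin n × Fin n)) (d : (Fin n ⊕ Fin n) →₀ ℕ) (m : Fin n × Fin n → ℕ) :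
    m ∈ TS S d ↔ (∀ p, p ∉ S → m p = 0) ∧ (∀ i, ∑ j, m (i, j) = d (Sum.inl i)) ∧
      (∀ j, ∑ i, m (i, j) = d (Sum.inr j)) := by
  unfold TS
  rw [Finset.mem_filter, and_iff_right_iff_imp]
  rintro ⟨_, h2, _⟩
  rw [Fintype.mem_piFinset]
  rintro ⟨i, j⟩
  rw [Finset.mem_range, Nat.lt_succ_iff, ← h2 i]
  exact Finset.single_le_sum (f := fun j => m (i, j)) (fun _ _ => Nat.zero_le _) (Finset.mem_univ j)

/-- add one to the entry `p` -/
def bump (p : Fin n × Fin n) (m : Fin n × Fin n → ℕ) : Fin n × Fin n → ℕ :=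
  fun q => m q + if q = p then 1 else 0

theorem bump_row (p : Fin n × Fin n) (m : Fin n × Fin n → ℕ) (i : Fin n) :
    ∑ j, bump p m (i, j) = ∑ j, m (i, j) + if i = p.1 then 1 else 0 := by
  unfold bump
  rw [Finset.sum_add_distrib]
  congr 1
  by_cases h : i = p.1
  · simp [Prod.ext_iff, h]
  · simp [Prod.ext_iff, h]

theorem bump_col (p : Fin n × Fin n) (m : Fin n × Fin n → ℕ) (j : Fin n) :
    ∑ i, bump p m (i, j) = ∑ i, m (i, j) + if j = p.2 then 1 else 0 := by
  unfold bump
  rw [Finset.sum_add_distrib]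
  congr 1
  by_cases h : j = p.2
  · simp [Prod.ext_iff, h]
  · simp [Prod.ext_iff, h]

theorem TS_filter_zero (S : Finset (Fin n × Fin n)) (p : Fin n × Fin n)
    (hp : p ∉ S) (d : (Fin n ⊕ Fin n) →₀ ℕ) :
    (TS (insert p S) d).filter (fun m => m p = 0) = TS S d := by
  ext m
  rw [Finset.mem_filter, mem_TS, mem_TS]
  constructor
  · rintro ⟨⟨h1, h2, h3⟩, h0⟩
    refine ⟨fun q hq => ?_, h2, h3⟩
    by_cases hqp : q = p
    · rw [hqp]; exact h0
    · exact h1 q (by simp [hqp, hq])
  · rintro ⟨h1, h2, h3⟩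
    exact ⟨⟨fun q hq => h1 q (fun h => hq (Finset.mem_insert_of_mem h)), h2, h3⟩, h1 p hp⟩

theorem TS_filter_ne (S : Finset (Fin n × Fin n)) (p : Fin n × Fin n)
    (d : (Fin n ⊕ Fin n) →₀ ℕ) :
    ((TS (insert p S) (d + eP p)).filter (fun m => ¬ m p = 0)).card = (TS (insert p S) d).card := by
  symm
  apply Finset.card_nbij' (bump p) (fun m q => m q - if q = p then 1 else 0)
  · intro m hm
    rw [Finset.mem_coe, mem_TS] at hm
    obtain ⟨h1, h2, h3⟩ := hm
    rw [Finset.mem_coe, Finset.mem_filter, mem_TS]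
    refine ⟨⟨?_, ?_, ?_⟩, ?_⟩
    · intro q hq
      have hqp : q ≠ p := fun h => hq (by simp [h])
      simp [bump, hqp, h1 q hq]
    · intro i
      rw [bump_row, h2]
      simp [eP]
    · intro j
      rw [bump_col, h3]
      simp [eP]
    · simp [bump]
  · intro m hm
    rw [Finset.mem_coe, Finset.mem_filter, mem_TS] at hm
    obtain ⟨⟨h1, h2, h3⟩, h0⟩ := hm
    have hb : bump p (fun q => m q - if q = p then 1 else 0) = m := by
      funext q
      by_cases hq : q = p
      · subst hq
        simp only [bump, if_true]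
        omega
      · simp [bump, hq]
    rw [Finset.mem_coe, mem_TS]
    refine ⟨?_, ?_, ?_⟩
    · intro q hq
      simp [h1 q hq]
    · intro i
      have := bump_row p (fun q => m q - if q = p then 1 else 0) i
      rw [hb, h2] at this
      simp only [eP, Finsupp.add_apply, expo_inl] at this
      show ∑ j, (m (i, j) - if (i, j) = p then 1 else 0) = _
      omega
    · intro j
      have := bump_col p (fun q => m q - if q = p then 1 else 0) j
      rw [hb, h3] at this
      simp only [eP, Finsupp.add_apply, expo_inr] at this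
      show ∑ i, (m (i, j) - if (i, j) = p then 1 else 0) = _
      omega
  · intro m _
    funext q
    simp [bump]
  · intro m hm
    rw [Finset.mem_coe, Finset.mem_filter] at hm
    funext q
    by_cases hq : q = p
    · subst hq
      simp only [bump, if_true]
      omega
    · simp [bump, hq]

theorem TS_filter_ne_empty (S : Finset (Fin n × Fin n)) (p : Fin n × Fin n)
    (d : (Fin n ⊕ Fin n) →₀ ℕ) (hd : ¬ eP p ≤ d) :
    (TS (insert p S) d).filter (fun m => ¬ m p = 0) = ∅ := by
  rw [Finset.filter_eq_empty_iff]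
  intro m hm h0
  apply h0
  by_contra hne
  apply hd
  rw [mem_TS] at hm
  obtain ⟨_, h2, h3⟩ := hm
  have e1 : m p ≤ d (Sum.inl p.1) := by
    rw [← h2 p.1]
    exact Finset.single_le_sum (f := fun j => m (p.1, j)) (fun _ _ => Nat.zero_le _)
      (Finset.mem_univ p.2)
  have e2 : m p ≤ d (Sum.inr p.2) := by
    rw [← h3 p.2]
    exact Finset.single_le_sum (f := fun i => m (i, p.2)) (fun _ _ => Nat.zero_le _)
      (Finset.mem_univ p.1)
  rw [Finsupp.le_def]
  rintro (i | j)
  · simp only [eP, expo_inl]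
    split_ifs with h
    · rw [h]; omega
    · omega
  · simp only [eP, expo_inr]
    split_ifs with h
    · rw [h]; omega
    · omega

/-- the generating series of the numbers of tables supported on `S` -/
noncomputable def TSer (S : Finset (Fin n × Fin n)) : MvPowerSeries (Fin n ⊕ Fin n) ℤ :=
  fun d => ((TS S d).card : ℤ)

theorem coeff_TSer (S : Finset (Fin n × Fin n)) (d : (Fin n ⊕ Fin n) →₀ ℕ) :
    coeff d (TSer S) = ((TS S d).card : ℤ) := rfl

/-- the factor `1 - x_i y_j` -/
noncomputable def UU (p : Fin n × Fin n) : MvPowerSeries (Fin n ⊕ Fin n) ℤ :=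
  1 - monomial (eP p) 1

theorem TSer_insert_mul (S : Finset (Fin n × Fin n)) (p : Fin n × Fin n) (hp : p ∉ S) :
    TSer (insert p S) * UU p = TSer S := by
  ext d
  rw [UU, mul_sub, mul_one, map_sub, coeff_mul_monomial, coeff_TSer, coeff_TSer, mul_one]
  have hsplit := Finset.card_filter_add_card_filter_not (s := TS (insert p S) d) (fun m => m p = 0)
  rw [TS_filter_zero S p hp] at hsplit
  split_ifs with h
  · rw [coeff_TSer]
    have := TS_filter_ne S p (d - eP p)
    rw [tsub_add_cancel_of_le h] at this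
    rw [this] at hsplit
    rw [← hsplit]
    push_cast
    ring
  · rw [TS_filter_ne_empty S p d h] at hsplit
    rw [← hsplit]
    simp [coeff_TSer]

theorem TSer_empty : TSer (∅ : Finset (Fin n × Fin n)) = 1 := by
  classical
  ext d
  rw [coeff_TSer, coeff_one]
  split_ifs with h
  · subst h
    have : TS (∅ : Finset (Fin n × Fin n)) 0 = {0} := by
      ext m
      rw [mem_TS, Finset.mem_singleton]
      constructor
      · rintro ⟨h1, _, _⟩
        funext q
        exact h1 q (by simp)
      · rintro rfl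
        simp
    rw [this]; simp
  · have : TS (∅ : Finset (Fin n × Fin n)) d = ∅ := by
      rw [Finset.eq_empty_iff_forall_notMem]
      intro m hm
      rw [mem_TS] at hm
      obtain ⟨h1, h2, h3⟩ := hm
      apply h
      ext (i | j)
      · rw [← h2 i]
        simp [h1]
      · rw [← h3 j]
        simp [h1]
    rw [this]; simp

theorem TSer_mul_prod (S : Finset (Fin n × Fin n)) : TSer S * ∏ p ∈ S, UU p = 1 := by
  classical
  induction S using Finset.induction_on with
  | empty => simp [TSer_empty]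
  | insert p S hp ih =>
    rw [Finset.prod_insert hp, ← mul_assoc, TSer_insert_mul S p hp, ih]

theorem TSer_univ_mul_compl (S : Finset (Fin n × Fin n)) :
    TSer Finset.univ * ∏ p ∈ Sᶜ, UU p = TSer S := by
  classical
  have h1 := TSer_mul_prod (Finset.univ : Finset (Fin n × Fin n))
  have h2 := TSer_mul_prod S
  rw [← Finset.prod_mul_prod_compl S] at h1
  calc TSer Finset.univ * ∏ p ∈ Sᶜ, UU p
      = (TSer Finset.univ * ∏ p ∈ Sᶜ, UU p) * (TSer S * ∏ p ∈ S, UU p) := by rw [h2, mul_one]
    _ = (TSer Finset.univ * ((∏ p ∈ S, UU p) * ∏ p ∈ Sᶜ, UU p)) * TSer S := by ring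
    _ = TSer S := by rw [h1, one_mul]

end Cfsg.Agent.Lib.Helper46
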