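import Mathlib
import Cfsg.Agent.Lib.Helper46.TableSeries

set_option autoImplicit false

namespace Cfsg.Agent.Lib.Helper46

open MvPowerSeries

variable {n : ℕ}

/-- the graph of a permutation -/
def GG (σ : Equiv.Perm (Fin n)) : Finset (Fin n × Fin n) := Finset.univ.image fun i => (σ i, i)

theorem mem_GG (σ : Equiv.Perm (Fin n)) (p : Fin n × Fin n) : p ∈ GG σ ↔ p.1 = σ p.2 := by
  unfold GG
  rw [Finset.mem_image]
  constructor
  · rintro ⟨i, _, rfl⟩
    rfl
  · intro h
    exact ⟨p.2, Finset.mem_univ _, by rw [← h]⟩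

theorem prod_compl_GG {R : Type*} [CommMonoid R] (σ : Equiv.Perm (Fin n)) (f : Fin n × Fin n → R) :
    ∏ p ∈ (GG σ)ᶜ, f p = ∏ i, ∏ k ∈ Finset.univ.erase i, f (σ i, k) := by
  classical
  have h1 : (GG σ)ᶜ = Finset.univ.filter fun p : Fin n × Fin n => p.1 ≠ σ p.2 := by
    ext p
    simp [mem_GG]
  rw [h1, Finset.prod_filter, Fintype.prod_prod_type, ← Equiv.prod_comp σ]
  refine Finset.prod_congr rfl fun i _ => ?_
  have h2 : Finset.univ.erase i = Finset.univ.filter fun k : Fin n => σ i ≠ σ k := by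
    ext k
    simp [eq_comm]
  rw [h2, Finset.prod_filter]

theorem sum_row_GG (σ : Equiv.Perm (Fin n)) (m : Fin n × Fin n → ℕ)
    (hm : ∀ p, p ∉ GG σ → m p = 0) (i : Fin n) : ∑ j, m (σ i, j) = m (σ i, i) := by
  apply Finset.sum_eq_single
  · intro j _ hj
    apply hm
    rw [mem_GG]
    intro h
    exact hj (σ.injective h).symm
  · simp

theorem sum_col_GG (σ : Equiv.Perm (Fin n)) (m : Fin n × Fin n → ℕ)
    (hm : ∀ p, p ∉ GG σ → m p = 0) (i : Fin n) : ∑ a, m (a, i) = m (σ i, i) := by
  apply Finset.sum_eq_single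
  · intro a _ ha
    apply hm
    rw [mem_GG]
    exact ha
  · simp

theorem card_TS_GG (σ : Equiv.Perm (Fin n)) (l l' : Fin n → ℕ) (h : StrictMono l)
    (h' : StrictMono l') :
    (TS (GG σ) (expo l l')).card = if σ = 1 ∧ l = l' then 1 else 0 := by
  split_ifs with hc
  · obtain ⟨rfl, rfl⟩ := hc
    rw [Finset.card_eq_one]
    refine ⟨fun p => if p.1 = p.2 then l p.1 else 0, ?_⟩
    ext m
    rw [mem_TS, Finset.mem_singleton]
    constructor
    · rintro ⟨h1, h2, _⟩
      funext p
      split_ifs with hp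
      · have := sum_row_GG 1 m h1 p.1
        rw [Equiv.Perm.one_apply, h2] at this
        rw [expo_inl] at this
        rw [this]
        congr 1
        exact Prod.ext rfl hp.symm
      · apply h1
        rw [mem_GG]
        exact hp
    · rintro rfl
      refine ⟨?_, ?_, ?_⟩
      · intro p hp
        rw [mem_GG] at hp
        exact if_neg hp
      · intro i
        simp
      · intro j
        simp
  · rw [Finset.card_eq_zero, Finset.eq_empty_iff_forall_notMem]
    intro m hm
    rw [mem_TS] at hm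
    obtain ⟨h1, h2, h3⟩ := hm
    apply hc
    have e : ∀ i, l (σ i) = l' i := by
      intro i
      have a1 := sum_row_GG σ m h1 i
      have a2 := sum_col_GG σ m h1 i
      rw [h2, expo_inl] at a1
      rw [h3, expo_inr] at a2
      rw [a1, a2]
    have e1 : l = l' := by
      apply (StrictMono.range_inj h h').1
      ext x
      simp only [Set.mem_range]
      constructor
      · rintro ⟨i, rfl⟩
        exact ⟨σ⁻¹ i, by rw [← e]; simp⟩
      · rintro ⟨i, rfl⟩
        exact ⟨σ i, e i⟩
    refine ⟨?_, e1⟩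
    ext i
    have := e i
    rw [← e1] at this
    rw [h.injective this]
    rfl

theorem UU_eq (p : Fin n × Fin n) :
    UU p = 1 - (X (Sum.inl p.1) : MvPowerSeries (Fin n ⊕ Fin n) ℤ) * X (Sum.inr p.2) := by
  classical
  rw [UU, X_def, X_def, monomial_mul_monomial, mul_one]
  have : eP p = Finsupp.single (Sum.inl p.1) 1 + Finsupp.single (Sum.inr p.2) 1 := by
    ext (i | j)
    · simp [eP, Finsupp.single_apply, eq_comm]
    · simp [eP, Finsupp.single_apply, eq_comm]
  rw [this]

theorem coeff_intCast_mul (c : ℤ) (φ : MvPowerSeries (Fin n ⊕ Fin n) ℤ)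
    (d : (Fin n ⊕ Fin n) →₀ ℕ) : coeff d ((c : MvPowerSeries (Fin n ⊕ Fin n) ℤ) * φ) = c * coeff d φ := by
  rw [← zsmul_eq_mul, map_zsmul, smul_eq_mul]

theorem det_vandermonde_inl :
    (Matrix.vandermonde fun i : Fin n => (X (Sum.inl i) : MvPowerSeries (Fin n ⊕ Fin n) ℤ)).det =
      ∑ κ : Equiv.Perm (Fin n), ((Equiv.Perm.sign κ : ℤ) : MvPowerSeries (Fin n ⊕ Fin n) ℤ) *
        monomial (expo (fun i => (κ i).val) 0) 1 := by
  classical
  rw [← Matrix.det_transpose, Matrix.det_apply']
  refine Finset.sum_congr rfl fun κ _ => ?_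
  congr 1
  simp only [Matrix.transpose_apply, Matrix.vandermonde_apply, X_pow_eq]
  rw [prod_monomial]
  simp only [Finset.prod_const_one]
  have : ∑ i, Finsupp.single (Sum.inl i : Fin n ⊕ Fin n) (κ i).val = expo (fun i => (κ i).val) 0 := by
    ext (i | j)
    · simp [Finsupp.finsetSum_apply, Finsupp.single_apply]
    · simp [Finsupp.finsetSum_apply, Finsupp.single_apply]
  rw [this]

theorem det_vandermonde_inr :
    (Matrix.vandermonde fun i : Fin n => (X (Sum.inr i) : MvPowerSeries (Fin n ⊕ Fin n) ℤ)).det =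
      ∑ κ : Equiv.Perm (Fin n), ((Equiv.Perm.sign κ : ℤ) : MvPowerSeries (Fin n ⊕ Fin n) ℤ) *
        monomial (expo 0 (fun i => (κ i).val)) 1 := by
  classical
  rw [← Matrix.det_transpose, Matrix.det_apply']
  refine Finset.sum_congr rfl fun κ _ => ?_
  congr 1
  simp only [Matrix.transpose_apply, Matrix.vandermonde_apply, X_pow_eq]
  rw [prod_monomial]
  simp only [Finset.prod_const_one]
  have : ∑ i, Finsupp.single (Sum.inr i : Fin n ⊕ Fin n) (κ i).val = expo 0 (fun i => (κ i).val) := by
    ext (i | j)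
    · simp [Finsupp.finsetSum_apply, Finsupp.single_apply]
    · simp [Finsupp.finsetSum_apply, Finsupp.single_apply]
  rw [this]

theorem series_identity :
    (Matrix.vandermonde fun i : Fin n => (X (Sum.inl i) : MvPowerSeries (Fin n ⊕ Fin n) ℤ)).det *
      (Matrix.vandermonde fun i : Fin n => (X (Sum.inr i) : MvPowerSeries (Fin n ⊕ Fin n) ℤ)).det *
      TSer Finset.univ =
    ∑ σ : Equiv.Perm (Fin n), ((Equiv.Perm.sign σ : ℤ) : MvPowerSeries (Fin n ⊕ Fin n) ℤ) *
      TSer (GG σ) := by
  rw [← cauchy_det, Matrix.det_apply', Finset.sum_mul]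
  refine Finset.sum_congr rfl fun σ _ => ?_
  rw [mul_assoc]
  congr 1
  rw [← TSer_univ_mul_compl (GG σ), prod_compl_GG, mul_comm]
  congr 1
  refine Finset.prod_congr rfl fun i _ => ?_
  rw [Matrix.of_apply]
  refine Finset.prod_congr rfl fun k _ => ?_
  rw [UU_eq]

/-- the orthogonality relation for the alternating sums of numbers of contingency tables -/
theorem table_orthogonality (l l' : Fin n → ℕ) (h : StrictMono l) (h' : StrictMono l') :
    ∑ κ : Equiv.Perm (Fin n), ∑ κ' : Equiv.Perm (Fin n),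
      (Equiv.Perm.sign κ : ℤ) * (Equiv.Perm.sign κ' : ℤ) *
        (if (∀ i, (κ i).val ≤ l i) ∧ (∀ j, (κ' j).val ≤ l' j) then
          ((TS Finset.univ (expo (fun i => l i - (κ i).val) (fun j => l' j - (κ' j).val))).card : ℤ)
        else 0) = if l = l' then 1 else 0 := by
  classical
  have key := congrArg (coeff (expo l l')) (series_identity (n := n))
  rw [det_vandermonde_inl, det_vandermonde_inr, Finset.sum_mul_sum, Finset.sum_mul, map_sum,
    map_sum] at key
  have hR : ∑ σ : Equiv.Perm (Fin n), coeff (expo l l')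
      (((Equiv.Perm.sign σ : ℤ) : MvPowerSeries (Fin n ⊕ Fin n) ℤ) * TSer (GG σ)) =
      if l = l' then 1 else 0 := by
    rw [Finset.sum_eq_single 1]
    · rw [coeff_intCast_mul, coeff_TSer, card_TS_GG 1 l l' h h']
      by_cases hl : l = l' <;> simp [hl]
    · intro σ _ hσ
      rw [coeff_intCast_mul, coeff_TSer, card_TS_GG σ l l' h h']
      simp [hσ]
    · simp
  rw [hR] at key
  rw [← key]
  refine Finset.sum_congr rfl fun κ _ => ?_
  rw [Finset.sum_mul, map_sum]
  refine Finset.sum_congr rfl fun κ' _ => ?_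
  have e1 : ((Equiv.Perm.sign κ : ℤ) : MvPowerSeries (Fin n ⊕ Fin n) ℤ) *
      monomial (expo (fun i => (κ i).val) 0) 1 *
      (((Equiv.Perm.sign κ' : ℤ) : MvPowerSeries (Fin n ⊕ Fin n) ℤ) *
        monomial (expo 0 (fun i => (κ' i).val)) 1) * TSer Finset.univ =
      ((Equiv.Perm.sign κ : ℤ) : MvPowerSeries (Fin n ⊕ Fin n) ℤ) *
      (((Equiv.Perm.sign κ' : ℤ) : MvPowerSeries (Fin n ⊕ Fin n) ℤ) *
        (monomial (expo (fun i => (κ i).val) (fun i => (κ' i).val)) 1 * TSer Finset.univ)) := by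
    have : (monomial (expo (fun i => (κ i).val) (fun i => (κ' i).val)) (1 : ℤ) :
        MvPowerSeries (Fin n ⊕ Fin n) ℤ) =
        monomial (expo (fun i => (κ i).val) 0) 1 * monomial (expo 0 (fun i => (κ' i).val)) 1 := by
      rw [monomial_mul_monomial, mul_one]
      have e2 : expo (fun i => (κ i).val) (fun i => (κ' i).val) =
          expo (fun i => (κ i).val) 0 + expo 0 (fun i => (κ' i).val) := by
        ext (i | j) <;> simp
      rw [e2]
    rw [this]
    ring
  rw [e1, coeff_intCast_mul, coeff_intCast_mul, coeff_monomial_mul, expo_sub, coeff_TSer,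
    one_mul, mul_assoc]
  congr 2
  simp only [expo_le_iff]

end Cfsg.Agent.Lib.Helper46
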