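import Mathlib
import Cfsg.Agent.Lib.Helper46.CompLabel

set_option autoImplicit false

namespace Cfsg.Agent.Lib.Helper46

open Cfsg

/-- two maps with fibres of equal sizes differ by a bijection of the sources -/
theorem exists_equiv_of_card_fiber {X X' Y : Type*} [Fintype X] [Fintype X'] [DecidableEq Y]
    (f : X → Y) (g : X' → Y)
    (h : ∀ y, (Finset.univ.filter fun x => f x = y).card = (Finset.univ.filter fun x => g x = y).card) :
    ∃ e : X ≃ X', ∀ x, g (e x) = f x := by
  have hy : ∀ y, Nonempty ({x // f x = y} ≃ {x // g x = y}) := fun y =>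
    ⟨Fintype.equivOfCardEq (by rw [Fintype.card_subtype, Fintype.card_subtype]; exact h y)⟩
  refine ⟨(Equiv.sigmaFiberEquiv f).symm.trans
    ((Equiv.sigmaCongrRight fun y => (hy y).some).trans (Equiv.sigmaFiberEquiv g)), ?_⟩
  intro x
  exact ((hy (f x)).some ⟨x, rfl⟩).2

theorem card_filter_comp_equiv {X X' : Type*} [Fintype X] [Fintype X'] (e : X ≃ X')
    (P : X' → Prop) [DecidablePred P] :
    (Finset.univ.filter fun x => P (e x)).card = (Finset.univ.filter P).card :=
  Finset.card_equiv e (by simp)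

variable {n : ℕ}

/-- contingency tables with prescribed margins -/
def IsTable (α β : Fin n → ℕ) (m : Fin n × Fin n → ℕ) : Prop :=
  (∀ i, ∑ j, m (i, j) = α i) ∧ (∀ j, ∑ i, m (i, j) = β j)

/-- the contingency table of a permutation -/
def tab (α β : Fin n → ℕ) (hα : ∑ k, α k = n) (hβ : ∑ k, β k = n) (w : Equiv.Perm (Fin n)) :
    Fin n × Fin n → ℕ :=
  fun p => (Finset.univ.filter fun x => lab α hα (w x) = p.1 ∧ lab β hβ x = p.2).card

theorem isTable_tab (α β : Fin n → ℕ) (hα : ∑ k, α k = n) (hβ : ∑ k, β k = n)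
    (w : Equiv.Perm (Fin n)) : IsTable α β (tab α β hα hβ w) := by
  constructor
  · intro i
    rw [← card_lab_eq α hα i, ← card_filter_comp_equiv w (fun y => lab α hα y = i)]
    rw [Finset.card_eq_sum_card_fiberwise (f := lab β hβ) (t := Finset.univ) (by simp)]
    refine Finset.sum_congr rfl fun j _ => ?_
    rw [Finset.filter_filter]
    rfl
  · intro j
    rw [← card_lab_eq β hβ j]
    rw [Finset.card_eq_sum_card_fiberwise (f := fun x => lab α hα (w x)) (t := Finset.univ) (by simp)]
    refine Finset.sum_congr rfl fun i _ => ?_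
    rw [Finset.filter_filter]
    unfold tab
    congr 1
    ext x
    simp [and_comm]

theorem mem_young_iff (μ : Fin n → ℕ) (hμ : ∑ k, μ k = n) (σ : Equiv.Perm (Fin n)) :
    σ ∈ youngSubgroup μ ↔ ∀ i, lab μ hμ (σ i) = lab μ hμ i := by
  simp only [Fin.ext_iff, lab_val]
  rfl

theorem tab_eq_of_rel (α β : Fin n → ℕ) (hα : ∑ k, α k = n) (hβ : ∑ k, β k = n)
    (w a b : Equiv.Perm (Fin n)) (ha : a ∈ youngSubgroup α) (hb : b ∈ youngSubgroup β) :
    tab α β hα hβ (a * w * b) = tab α β hα hβ w := by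
  rw [mem_young_iff α hα] at ha
  rw [mem_young_iff β hβ] at hb
  funext p
  unfold tab
  rw [← card_filter_comp_equiv b (fun x => lab α hα (w x) = p.1 ∧ lab β hβ x = p.2)]
  congr 1
  ext x
  rw [Finset.mem_filter, Finset.mem_filter]
  simp only [Finset.mem_univ, true_and, Equiv.Perm.coe_mul, Function.comp_apply]
  rw [ha, hb]

theorem rel_of_tab_eq (α β : Fin n → ℕ) (hα : ∑ k, α k = n) (hβ : ∑ k, β k = n)
    (w w' : Equiv.Perm (Fin n)) (h : tab α β hα hβ w = tab α β hα hβ w') :
    ∃ a ∈ youngSubgroup α, ∃ b ∈ youngSubgroup β, w' = a * w * b := by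
  obtain ⟨τ, hτ⟩ := exists_equiv_of_card_fiber
    (fun x => (lab α hα (w x), lab β hβ x)) (fun x => (lab α hα (w' x), lab β hβ x)) (by
      intro p
      have := congrFun h p
      unfold tab at this
      simpa only [Prod.ext_iff] using this)
  simp only [Prod.ext_iff] at hτ
  refine ⟨w' * τ * w⁻¹, ?_, τ⁻¹, ?_, by group⟩
  · rw [mem_young_iff α hα]
    intro i
    have := (hτ (w⁻¹ i)).1
    simpa using this
  · apply Subgroup.inv_mem
    rw [mem_young_iff β hβ]
    intro i
    exact (hτ i).2

theorem exists_tab_eq (α β : Fin n → ℕ) (hα : ∑ k, α k = n) (hβ : ∑ k, β k = n)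
    (m : Fin n × Fin n → ℕ) (hm : IsTable α β m) : ∃ w, tab α β hα hβ w = m := by
  classical
  have hcount : ∀ P : Fin n × Fin n → Prop, ∀ [DecidablePred P],
      (Finset.univ.filter fun t : (Σ p : Fin n × Fin n, Fin (m p)) => P t.1).card =
        ∑ p, if P p then m p else 0 := by
    intro P _
    rw [Finset.card_filter, Fintype.sum_sigma]
    refine Finset.sum_congr rfl fun p _ => ?_
    by_cases hp : P p <;> simp [hp]
  obtain ⟨φ, hφ⟩ := exists_equiv_of_card_fiber
    (fun t : (Σ p : Fin n × Fin n, Fin (m p)) => t.1.1) (lab α hα) (by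
      intro i
      rw [card_lab_eq, hcount (fun p => p.1 = i), Fintype.sum_prod_type, ← hm.1 i]
      rw [Finset.sum_eq_single i]
      · simp
      · intro b _ hb
        simp [hb]
      · simp)
  obtain ⟨ψ, hψ⟩ := exists_equiv_of_card_fiber
    (fun t : (Σ p : Fin n × Fin n, Fin (m p)) => t.1.2) (lab β hβ) (by
      intro j
      rw [card_lab_eq, hcount (fun p => p.2 = j), Fintype.sum_prod_type_right, ← hm.2 j]
      rw [Finset.sum_eq_single j]
      · simp
      · intro b _ hb
        simp [hb]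
      · simp)
  refine ⟨ψ.symm.trans φ, ?_⟩
  funext p
  unfold tab
  rw [← card_filter_comp_equiv ψ
    (fun x => lab α hα ((ψ.symm.trans φ) x) = p.1 ∧ lab β hβ x = p.2)]
  have : (Finset.univ.filter fun t : (Σ p : Fin n × Fin n, Fin (m p)) =>
      lab α hα ((ψ.symm.trans φ) (ψ t)) = p.1 ∧ lab β hβ (ψ t) = p.2) =
      Finset.univ.filter fun t : (Σ p : Fin n × Fin n, Fin (m p)) => t.1 = p := by
    ext t
    simp only [Finset.mem_filter, Finset.mem_univ, true_and, Equiv.trans_apply,
      Equiv.symm_apply_apply, hφ, hψ, Prod.ext_iff]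
  rw [this, hcount (fun q => q = p)]
  simp

/-- double cosets of Young subgroups are counted by contingency tables -/
theorem card_doset_young (α β : Fin n → ℕ) (hα : ∑ k, α k = n) (hβ : ∑ k, β k = n) :
    Nat.card (DoubleCoset.Quotient (youngSubgroup α : Set (Equiv.Perm (Fin n))) (youngSubgroup β)) =
      Nat.card {m : Fin n × Fin n → ℕ // IsTable α β m} := by
  have hwd : ∀ w w' : Equiv.Perm (Fin n),
      (DoubleCoset.setoid (youngSubgroup α : Set (Equiv.Perm (Fin n))) (youngSubgroup β)) w w' →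
      (⟨tab α β hα hβ w, isTable_tab α β hα hβ w⟩ : {m : Fin n × Fin n → ℕ // IsTable α β m}) =
        ⟨tab α β hα hβ w', isTable_tab α β hα hβ w'⟩ := by
    intro w w' hww
    obtain ⟨a, ha, b, hb, e⟩ := DoubleCoset.rel_iff.1 hww
    rw [Subtype.mk.injEq, e, tab_eq_of_rel α β hα hβ w a b ha hb]
  refine Nat.card_congr (Equiv.ofBijective (Quotient.lift _ hwd) ⟨?_, ?_⟩)
  · intro a b
    induction a using Quotient.inductionOn with | _ w =>
    induction b using Quotient.inductionOn with | _ w' =>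
    intro hab
    simp only [Quotient.lift_mk, Subtype.mk.injEq] at hab
    apply Quotient.sound
    exact DoubleCoset.rel_iff.2 (rel_of_tab_eq α β hα hβ w w' hab)
  · rintro ⟨m, hm⟩
    obtain ⟨w, hw⟩ := exists_tab_eq α β hα hβ m hm
    refine ⟨Quotient.mk _ w, ?_⟩
    simp only [Quotient.lift_mk, Subtype.mk.injEq]
    exact hw

end Cfsg.Agent.Lib.Helper46
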