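import Mathlib
import Cfsg.Agent.Lib.Helper46.TableOrth
import Cfsg.Agent.Lib.Helper46.YoungTables
import Cfsg.Agent.Lib.Helper46.GLnYoung

set_option autoImplicit false

namespace Cfsg.Agent.Lib.Helper46

open Matrix Cfsg
open scoped MatrixGroups

variable {F : Type*} [Field F] {n : ℕ}

theorem card_isTable (α β : Fin n → ℕ) :
    Nat.card {m : Fin n × Fin n → ℕ // IsTable α β m} = (TS Finset.univ (expo α β)).card := by
  apply Nat.subtype_card
  intro m
  rw [mem_TS]
  simp [IsTable]

/-- the inner product of two flag characters is a number of contingency tables -/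
theorem sum_flag_mul [Fintype (GL (Fin n) F)] (α β : Fin n → ℕ) (hα : ∑ k, α k = n)
    (hβ : ∑ k, β k = n) :
    ∑ g : GL (Fin n) F, fixedPointCharacter (parabolicGL n F α) g *
        fixedPointCharacter (parabolicGL n F β) g =
      ((TS Finset.univ (expo α β)).card : ℂ) * (Nat.card (GL (Fin n) F) : ℂ) := by
  rw [sum_fixedPointCharacter_mul, card_doset_parabolic, card_doset_young α β hα hβ, card_isTable]

theorem sum_shift (ν : Fin n → ℕ) (hsum : ∑ i, ν i = n) (κ : Equiv.Perm (Fin n))
    (h : ∀ i, (κ i).val ≤ ν i + i.val) : ∑ i, (ν i + i.val - (κ i).val) = n := by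
  have h1 : ∑ i, (ν i + i.val - (κ i).val) + ∑ i, (κ i).val = ∑ i, (ν i + i.val) := by
    rw [← Finset.sum_add_distrib]
    exact Finset.sum_congr rfl fun i _ => Nat.sub_add_cancel (h i)
  have h2 : ∑ i, (κ i).val = ∑ i : Fin n, i.val := Equiv.sum_comp κ (fun i : Fin n => i.val)
  rw [Finset.sum_add_distrib, hsum, h2] at h1
  omega

theorem strictMono_shift (ν : Fin n → ℕ) (hmono : Monotone ν) :
    StrictMono fun i : Fin n => ν i + i.val := by
  intro i j hij
  have := hmono hij.le
  have h2 : i.val < j.val := hij
  simp only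
  omega

/-- orthogonality of the alternating sums of flag characters -/
theorem sum_unipotent_mul [Fintype (GL (Fin n) F)] (ν ν' : Fin n → ℕ) (hmono : Monotone ν)
    (hsum : ∑ i, ν i = n) (hmono' : Monotone ν') (hsum' : ∑ i, ν' i = n) [Decidable (ν = ν')] :
    ∑ g : GL (Fin n) F, unipotentCharacterGL n F ν g * unipotentCharacterGL n F ν' g =
      (Nat.card (GL (Fin n) F) : ℂ) * (if ν = ν' then 1 else 0) := by
  classical
  have horth := table_orthogonality _ _ (strictMono_shift ν hmono) (strictMono_shift ν' hmono')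
  have hiff : ((fun i : Fin n => ν i + i.val) = fun i : Fin n => ν' i + i.val) ↔ ν = ν' := by
    constructor
    · intro h
      funext i
      have := congrFun h i
      omega
    · rintro rfl
      rfl
  have hcast := congrArg (fun z : ℤ => (z : ℂ)) horth
  simp only [hiff] at hcast
  push_cast at hcast
  have hR := Eq.trans (show (if ν = ν' then (1 : ℂ) else 0) = _ by congr) hcast.symm
  rw [hR, Finset.mul_sum]
  unfold unipotentCharacterGL
  simp only [Finset.sum_mul_sum]
  rw [Finset.sum_comm]
  refine Finset.sum_congr rfl fun κ _ => ?_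
  rw [Finset.sum_comm, Finset.mul_sum]
  refine Finset.sum_congr rfl fun κ' _ => ?_
  by_cases h1 : ∀ i, (κ i).val ≤ ν i + i.val
  · by_cases h2 : ∀ i, (κ' i).val ≤ ν' i + i.val
    · simp only [if_pos h1, if_pos h2, h1, h2, and_self, implies_true, if_true]
      have := sum_flag_mul (F := F) _ _ (sum_shift ν hsum κ h1) (sum_shift ν' hsum' κ' h2)
      have e : ∀ g : GL (Fin n) F,
          ((Equiv.Perm.sign κ : ℤ) : ℂ) *
            fixedPointCharacter (parabolicGL n F fun i => ν i + i.val - (κ i).val) g *
          (((Equiv.Perm.sign κ' : ℤ) : ℂ) *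
            fixedPointCharacter (parabolicGL n F fun i => ν' i + i.val - (κ' i).val) g) =
          ((Equiv.Perm.sign κ : ℤ) : ℂ) * ((Equiv.Perm.sign κ' : ℤ) : ℂ) *
          (fixedPointCharacter (parabolicGL n F fun i => ν i + i.val - (κ i).val) g *
            fixedPointCharacter (parabolicGL n F fun i => ν' i + i.val - (κ' i).val) g) := by
        intro g; ring
      simp only [e]
      rw [← Finset.mul_sum, this]
      push_cast
      ring
    · simp [h2]
  · simp [h1]

end Cfsg.Agent.Lib.Helper46
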