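import Mathlib
import Cfsg.Agent.Lib.Helper46.ParabolicIndex
import Cfsg.Agent.Lib.Helper46.UnipOrth

set_option autoImplicit false

namespace Cfsg.Agent.Lib.Helper46

open Matrix Cfsg Polynomial
open scoped MatrixGroups

/-- the `q`-integer -/
def Qn (q r : ℕ) : ℕ := ∑ l ∈ Finset.range r, q ^ l

/-- the falling `q`-factorial -/
def ff (q a k : ℕ) : ℕ := ∏ t ∈ Finset.range k, Qn q (a - t)

theorem qf_succ (q r : ℕ) : qf q (r + 1) = qf q r * Qn q (r + 1) := by
  unfold qf Qn
  rw [Finset.prod_range_succ]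

theorem qf_eq_mul_ff (q a k : ℕ) (h : k ≤ a) : qf q a = qf q (a - k) * ff q a k := by
  induction k with
  | zero => simp [ff]
  | succ k ih =>
    rw [ih (by omega)]
    unfold ff
    rw [Finset.prod_range_succ]
    have e : a - k = (a - (k + 1)) + 1 := by omega
    conv_lhs => rw [e, qf_succ, ← e]
    ring

theorem ff_eq_zero (q a k : ℕ) (h : a < k) : ff q a k = 0 := by
  unfold ff
  apply Finset.prod_eq_zero (Finset.mem_range.2 h)
  simp [Qn]

theorem Qn_add (q t s : ℕ) : Qn q (t + s) = Qn q t + q ^ t * Qn q s := by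
  unfold Qn
  rw [Finset.sum_range_add, Finset.mul_sum]
  congr 1
  exact Finset.sum_congr rfl fun l _ => pow_add q t l

theorem pow_mul_ff (q a k : ℕ) :
    ((q : ℂ) ^ (∑ t ∈ Finset.range k, t)) * (ff q a k : ℂ) =
      ∏ t ∈ Finset.range k, ((Qn q a : ℂ) - (Qn q t : ℂ)) := by
  by_cases h : a < k
  · rw [ff_eq_zero q a k h, Finset.prod_eq_zero (Finset.mem_range.2 h) (sub_self _)]
    simp
  · rw [not_lt] at h
    unfold ff
    rw [← Finset.prod_pow_eq_pow_sum, Nat.cast_prod, ← Finset.prod_mul_distrib]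
    refine Finset.prod_congr rfl fun t ht => ?_
    rw [Finset.mem_range] at ht
    have e : Qn q a = Qn q t + q ^ t * Qn q (a - t) := by
      rw [← Qn_add]; congr 1; omega
    rw [e]
    push_cast
    ring

theorem six_mul_sum_sum (n : ℕ) :
    6 * ∑ j ∈ Finset.range n, ∑ i ∈ Finset.range j, i = n * (n - 1) * (n - 2) := by
  induction n with
  | zero => simp
  | succ n ih =>
    rw [Finset.sum_range_succ, mul_add, ih]
    have := Finset.sum_range_id_mul_two n
    rcases n with _ | _ | n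
    · simp
    · simp
    · simp only [Nat.add_sub_cancel] at this ⊢
      have e1 : n + 1 + 1 - 2 = n := by omega
      have e2 : n + 1 + 1 + 1 - 2 = n + 1 := by omega
      rw [e1, e2]
      nlinarith

theorem sum_sum_eq (n : ℕ) :
    ∑ j ∈ Finset.range n, ∑ i ∈ Finset.range j, i = n * (n - 1) * (n - 2) / 6 := by
  rw [← six_mul_sum_sum, Nat.mul_div_cancel_left _ (by norm_num)]

variable {n : ℕ}

/-- the determinant of falling `q`-factorials -/
theorem det_ff (q : ℕ) (l : Fin n → ℕ) :
    ((q : ℂ) ^ (n * (n - 1) * (n - 2) / 6)) *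
      (Matrix.of fun i j : Fin n => (ff q (l i) j.val : ℂ)).det =
      ∏ i : Fin n, ∏ j ∈ Finset.Ioi i, ((Qn q (l j) : ℂ) - (Qn q (l i) : ℂ)) := by
  rw [← Matrix.det_vandermonde (fun i => (Qn q (l i) : ℂ))]
  rw [Matrix.det_eval_matrixOfPolynomials_eq_det_vandermonde (fun i => (Qn q (l i) : ℂ))
    (fun j : Fin n => ∏ t ∈ Finset.range j.val, (X - C (Qn q t : ℂ)))]
  · have e : (Matrix.of fun i j : Fin n =>
        (∏ t ∈ Finset.range j.val, (X - C (Qn q t : ℂ))).eval (Qn q (l i) : ℂ)) =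
        Matrix.of fun i j : Fin n => ((q : ℂ) ^ (∑ t ∈ Finset.range j.val, t)) *
          (Matrix.of fun i j : Fin n => (ff q (l i) j.val : ℂ)) i j := by
      ext i j
      simp only [Matrix.of_apply]
      rw [pow_mul_ff, Polynomial.eval_prod]
      simp
    rw [e, Matrix.det_mul_row, Finset.prod_pow_eq_pow_sum, ← sum_sum_eq,
      Finset.sum_range (fun j => ∑ t ∈ Finset.range j, t)]
  · intro j
    rw [Polynomial.natDegree_prod_of_monic _ _ (fun t _ => Polynomial.monic_X_sub_C _)]
    simp only [Polynomial.natDegree_X_sub_C]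
    simp
  · intro j
    exact Polynomial.monic_prod_of_monic _ _ (fun t _ => Polynomial.monic_X_sub_C _)

variable {F : Type*} [Field F] [Fintype F]

theorem fixedPointCharacter_one {G : Type*} [Group G] (H : Subgroup G) :
    fixedPointCharacter H 1 = (Nat.card (G ⧸ H) : ℂ) := by
  unfold fixedPointCharacter
  congr 1
  apply Nat.card_congr
  exact Equiv.subtypeUnivEquiv (by intro x; simp)

theorem unipotent_one_mul (ν : Fin n → ℕ) (hsum : ∑ i, ν i = n) :
    unipotentCharacterGL n F ν 1 * ∏ i : Fin n, (qf (Fintype.card F) (ν i + i.val) : ℂ) =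
      (qf (Fintype.card F) n : ℂ) *
        (Matrix.of fun i j : Fin n => (ff (Fintype.card F) (ν i + i.val) j.val : ℂ)).det := by
  set q := Fintype.card F with hq
  rw [← Matrix.det_transpose, Matrix.det_apply', Finset.mul_sum]
  unfold unipotentCharacterGL
  rw [Finset.sum_mul]
  refine Finset.sum_congr rfl fun κ _ => ?_
  simp only [Matrix.transpose_apply, Matrix.of_apply]
  by_cases h : ∀ i, (κ i).val ≤ ν i + i.val
  · rw [if_pos h, fixedPointCharacter_one]
    have h1 := index_parabolic (F := F) (fun i => ν i + i.val - (κ i).val) (sum_shift ν hsum κ h)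
    rw [← hq] at h1
    have h2 : ∏ i : Fin n, qf q (ν i + i.val) =
        (∏ i : Fin n, qf q (ν i + i.val - (κ i).val)) * ∏ i : Fin n, ff q (ν i + i.val) (κ i).val := by
      rw [← Finset.prod_mul_distrib]
      exact Finset.prod_congr rfl fun i _ => qf_eq_mul_ff q _ _ (h i)
    have h3 : (∏ i : Fin n, (qf q (ν i + i.val) : ℂ)) =
        (∏ i : Fin n, (qf q (ν i + i.val - (κ i).val) : ℂ)) *
          ∏ i : Fin n, (ff q (ν i + i.val) (κ i).val : ℂ) := by exact_mod_cast h2
    have h4 : (Nat.card (GL (Fin n) F ⧸ parabolicGL n F fun i => ν i + i.val - (κ i).val) : ℂ) *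
        ∏ i : Fin n, (qf q (ν i + i.val - (κ i).val) : ℂ) = (qf q n : ℂ) := by exact_mod_cast h1
    rw [h3, ← h4]
    ring
  · rw [if_neg h, zero_mul]
    push Not at h
    obtain ⟨i, hi⟩ := h
    rw [Finset.prod_eq_zero (Finset.mem_univ i) (by rw [ff_eq_zero q _ _ hi]; simp)]
    simp

/-- the degree formula -/
theorem unipotent_degree (ν : Fin n → ℕ) (hsum : ∑ i, ν i = n) :
    unipotentCharacterGL n F ν 1 * ((Fintype.card F : ℂ) ^ (n * (n - 1) * (n - 2) / 6)) *
        ∏ i : Fin n, (qf (Fintype.card F) (ν i + i.val) : ℂ) =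
      (qf (Fintype.card F) n : ℂ) * ∏ i : Fin n, ∏ j ∈ Finset.Ioi i,
        ((Qn (Fintype.card F) (ν j + j.val) : ℂ) - (Qn (Fintype.card F) (ν i + i.val) : ℂ)) := by
  rw [← det_ff, mul_right_comm, unipotent_one_mul ν hsum]
  ring

end Cfsg.Agent.Lib.Helper46
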