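import Mathlib
import Cfsg.Agent.Lib.Helper46.UnipDegree
import Cfsg.Agent.Lib.Helper46.SL2CharIrr
import Cfsg.Agent.Lib.Helper4.PermChar

set_option autoImplicit false

namespace Cfsg.Agent.Lib.Helper46

open Matrix Cfsg
open scoped MatrixGroups ComplexConjugate

variable {F : Type*} [Field F] [Fintype F] {n : ℕ}

theorem unipotent_genChar (ν : Fin n → ℕ) :
    IsGeneralizedCharacter (GL (Fin n) F) (unipotentCharacterGL n F ν) := by
  classical
  have e : unipotentCharacterGL n F ν = ∑ κ : Equiv.Perm (Fin n),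
      (if ∀ i : Fin n, (κ i).val ≤ ν i + i.val then
        ((Equiv.Perm.sign κ : ℤ) : ℂ) •
          fixedPointCharacter (parabolicGL n F fun i => ν i + i.val - (κ i).val)
      else 0) := by
    funext g
    rw [Finset.sum_apply]
    unfold unipotentCharacterGL
    refine Finset.sum_congr rfl fun κ _ => ?_
    split_ifs <;> simp
  rw [e]
  apply Helper32.genChar_sum
  intro κ _
  split_ifs
  · apply Helper32.genChar_intCast_smul
    apply Helper32.genChar_of_char
    exact Helper4.isCharacter_fixedBy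
  · exact Helper32.genChar_zero

omit [Fintype F] in
theorem unipotent_conj (ν : Fin n → ℕ) (g : GL (Fin n) F) :
    conj (unipotentCharacterGL n F ν g) = unipotentCharacterGL n F ν g := by
  unfold unipotentCharacterGL fixedPointCharacter
  rw [map_sum]
  refine Finset.sum_congr rfl fun κ _ => ?_
  split_ifs <;> simp

theorem unipotent_norm [Fintype (GL (Fin n) F)] (ν : Fin n → ℕ) (hmono : Monotone ν)
    (hsum : ∑ i, ν i = n) :
    classInner (unipotentCharacterGL n F ν) (unipotentCharacterGL n F ν) = 1 := by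
  classical
  unfold classInner
  simp only [unipotent_conj]
  rw [sum_unipotent_mul ν ν hmono hsum hmono hsum, if_pos rfl, mul_one]
  have h3 : (Nat.card (GL (Fin n) F) : ℂ) ≠ 0 := by
    exact_mod_cast Nat.card_pos.ne'
  field_simp

theorem Qn_mono (q : ℕ) : Monotone (Qn q) := by
  intro a b hab
  unfold Qn
  exact Finset.sum_le_sum_of_subset (Finset.range_subset_range.2 hab)

theorem qf_pos (q r : ℕ) : 0 < qf q r := by
  unfold qf
  apply Finset.prod_pos
  intro j _
  rw [Finset.sum_range_succ']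
  simp

theorem unipotent_one_nat (ν : Fin n → ℕ) (hmono : Monotone ν) (hsum : ∑ i, ν i = n) :
    ∃ m : ℕ, unipotentCharacterGL n F ν 1 = m := by
  obtain ⟨z, hz⟩ := Helper32.genChar_apply_one (unipotent_genChar (F := F) ν)
  have hdeg := unipotent_degree (F := F) ν hsum
  set q := Fintype.card F with hq
  have hq0 : 0 < q := Fintype.card_pos
  have hR : ∏ i : Fin n, ∏ j ∈ Finset.Ioi i,
      ((Qn q (ν j + j.val) : ℂ) - (Qn q (ν i + i.val) : ℂ)) =
      ((∏ i : Fin n, ∏ j ∈ Finset.Ioi i, (Qn q (ν j + j.val) - Qn q (ν i + i.val)) : ℕ) : ℂ) := by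
    rw [Nat.cast_prod]
    refine Finset.prod_congr rfl fun i _ => ?_
    rw [Nat.cast_prod]
    refine Finset.prod_congr rfl fun j hj => ?_
    rw [Finset.mem_Ioi] at hj
    rw [Nat.cast_sub]
    apply Qn_mono
    exact (strictMono_shift ν hmono hj).le
  rw [hR, hz] at hdeg
  set A : ℕ := q ^ (n * (n - 1) * (n - 2) / 6) * ∏ i : Fin n, qf q (ν i + i.val) with hA
  set B : ℕ := qf q n * ∏ i : Fin n, ∏ j ∈ Finset.Ioi i,
    (Qn q (ν j + j.val) - Qn q (ν i + i.val)) with hB
  have hApos : 0 < A := by
    apply Nat.mul_pos (pow_pos hq0 _)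
    exact Finset.prod_pos fun i _ => qf_pos q _
  have hzz : z * (A : ℤ) = (B : ℤ) := by
    have : (z : ℂ) * (A : ℂ) = (B : ℂ) := by
      rw [hA, hB]
      push_cast
      push_cast at hdeg
      rw [← hdeg]
      ring
    exact_mod_cast this
  have hz0 : 0 ≤ z := by
    by_contra hneg
    rw [not_le] at hneg
    have h1 : z * (A : ℤ) < 0 := mul_neg_of_neg_of_pos hneg (by exact_mod_cast hApos)
    rw [hzz] at h1
    have : (0 : ℤ) ≤ (B : ℤ) := Int.natCast_nonneg B
    omega
  obtain ⟨m, hm⟩ := Int.eq_ofNat_of_zero_le hz0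
  refine ⟨m, ?_⟩
  rw [hz, hm]
  simp

/-- Steinberg: the alternating sums of flag characters are irreducible -/
theorem unipotent_irr (ν : Fin n → ℕ) (hmono : Monotone ν) (hsum : ∑ i, ν i = n) :
    IsIrrCharacter (GL (Fin n) F) (unipotentCharacterGL n F ν) := by
  classical
  have : Fintype (GL (Fin n) F) := Fintype.ofFinite _
  obtain ⟨m, hm⟩ := unipotent_one_nat (F := F) ν hmono hsum
  exact irr_of_norm_one (unipotent_genChar ν) (unipotent_norm ν hmono hsum) m hm

end Cfsg.Agent.Lib.Helper46
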